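import Cfsg.Agent.SchurRee4.OddFacts
import Cfsg.Agent.SchurTwisted.D4Cross

/-!
# The multiplier of `²F₄(q)` at odd primes

Two-elements lift uniquely; the torus lifts to an abelian group with a canonical complement of the
kernel; the rank-one relations follow from one identity per class.
-/

set_option autoImplicit false

namespace CfsgLib.SchurRee4

open Cfsg.Lie CfsgLib.Chevalley CfsgLib.TwistedLie CfsgLib.TwistedLie.F4 CfsgLib.SchurTwisted
open CfsgLib.SchurClassical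
open scoped commutatorElement

local notation "S" => sysF4

universe u

variable {K : Type u} [Field K] [Fintype K] {m : ℕ} (hK : Fintype.card K = 2 ^ (2 * m + 1))
  {Γ : Type u} [Group Γ] [Finite Γ] {π : Γ →* GL chevF4.Idx K} {r : ℕ}

include hK

omit [Group Γ] [Finite Γ] in
theorem isPGroup_U : IsPGroup 2 ↥(chevF4.posUnipotent K ⊓ (tw hK).G) :=
  IsPGroup.of_card (n := (2 * m + 1) * 12) (by rw [card_U hK, pow_mul])

variable (hr : r.Prime) (hne : r ≠ 2) (hrange : π.range = (tw hK).G)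
  (hc : π.ker ≤ Subgroup.center Γ) (hA : IsPGroup r π.ker)
include hr hne hrange hc hA

theorem kernel_facts : (∀ z ∈ π.ker, ∀ g, g * z = z * g) ∧
    (∀ z ∈ π.ker, z * z = 1 → z = 1) := by
  refine ⟨fun z hz g => Subgroup.mem_center_iff.1 (hc hz) g, fun z hz h => ?_⟩
  obtain ⟨k, hk⟩ := hA ⟨z, hz⟩
  exact eq_one_of_pow_prime_pow (r := r) (congrArg Subtype.val hk)
    (show z ^ 2 = 1 by rw [sq, h]) ((Nat.coprime_primes hr Nat.prime_two).2 hne)

theorem torus_lifts_commute {x y : Γ} (hx : π x ∈ TT hK) (hy : π y ∈ TT hK) : x * y = y * x := by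
  classical
  obtain ⟨hz, hz2⟩ := kernel_facts hK hr hne hrange hc hA
  have hTc : ∀ s ∈ TT hK, ∀ t ∈ TT hK, s * t = t * s := fun s hs t ht => by
    obtain ⟨a, b, rfl⟩ := (mem_TT hK).1 hs
    obtain ⟨a', b', rfl⟩ := (mem_TT hK).1 ht
    rw [← map_mul, ← map_mul, mul_comm]
  have hR : ∀ i, refl K i ∈ π.range := fun i => hrange ▸ (tw hK).n_mem i
  obtain ⟨n, hn⟩ := hR 0
  have hinv := fun i => inv_eq_of_mul_eq_one_left (refl_sq hK i)
  have hRT : ∀ t ∈ TT hK, refl K 0 * t * refl K 0 ∈ TT hK := fun t ht => by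
    have := TT_conj hK 0 t ht
    rwa [← refl, hinv] at this
  -- the elements of one eigenspace
  have cyc : ∀ g ∈ TT hK, ∀ {x y : Γ}, (∃ i : ℤ, g ^ i = π x) → (∃ j : ℤ, g ^ j = π y) →
      Commute x y := by
    intro g hg x y ⟨i, hi⟩ ⟨j, hj⟩
    obtain ⟨gh, hgh⟩ : g ∈ π.range := hrange ▸ TT_le_G hK hg
    have d : ∀ {x : Γ} {i : ℤ}, g ^ i = π x → ∃ z ∈ π.ker, x = gh ^ i * z := fun {x i} e =>
      ⟨(gh ^ i)⁻¹ * x, by rw [MonoidHom.mem_ker, map_mul, map_inv, map_zpow, hgh, e, inv_mul_cancel],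
        by rw [mul_inv_cancel_left]⟩
    obtain ⟨z, hz', rfl⟩ := d hi
    obtain ⟨w, hw', rfl⟩ := d hj
    have cz : ∀ g, Commute g z := hz z hz'
    have cw : ∀ g, Commute g w := hz w hw'
    exact ((Commute.zpow_zpow_self gh i j).mul_right (cw _)).mul_left
      ((cz _).symm.mul_right (cz w).symm)
  obtain ⟨gp, hgp, hp⟩ := fixed_cyclic hK
  obtain ⟨gm, hgm, hm⟩ := inverted_cyclic hK
  have hinv1 : ∀ t : GL chevF4.Idx K, refl K 0 * t⁻¹ * refl K 0 = (refl K 0 * t * refl K 0)⁻¹ :=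
    fun t => by rw [mul_inv_rev, mul_inv_rev, hinv, mul_assoc]
  -- splitting into the two eigenspaces
  have split : ∀ x, π x ∈ TT hK → ∃ p q : Γ, π p ∈ TT hK ∧ π q ∈ TT hK ∧
      refl K 0 * π p * refl K 0 = π p ∧ refl K 0 * π q * refl K 0 = (π q)⁻¹ ∧
      π (x * x) = π (p * q) := by
    intro x hx
    set t := π x
    set t' := refl K 0 * t * refl K 0 with ht'
    have e : π (n * x * n) = t' := by rw [map_mul, map_mul, hn]
    have hrr : ∀ g : GL chevF4.Idx K, refl K 0 * (refl K 0 * g) = g := fun g => by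
      rw [← mul_assoc, refl_sq hK, one_mul]
    have ett : refl K 0 * t' * refl K 0 = t := by
      rw [ht']; simp only [mul_assoc, refl_sq hK, mul_one, hrr]
    have dist : ∀ s s' : GL chevF4.Idx K, refl K 0 * (s * s') * refl K 0 =
        refl K 0 * s * refl K 0 * (refl K 0 * s' * refl K 0) := fun s s' => by
      simp only [mul_assoc, hrr]
    refine ⟨x * (n * x * n), x * (n * x * n)⁻¹, ?_, ?_, ?_, ?_, ?_⟩
    · rw [map_mul, e]; exact mul_mem hx (hRT t hx)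
    · rw [map_mul, map_inv, e]; exact mul_mem hx (inv_mem (hRT t hx))
    · rw [map_mul, e, dist, ett, ← ht']; exact hTc _ (hRT t hx) _ hx
    · rw [map_mul, map_inv, e, dist, hinv1, ett, ← ht', mul_inv_rev, inv_inv]
    · have ep : π (x * (n * x * n)) = t * t' := by rw [map_mul, e]
      have eq' : π (x * (n * x * n)⁻¹) = t * t'⁻¹ := by rw [map_mul, map_inv, e]
      rw [map_mul π x x, map_mul π (x * (n * x * n)), ep, eq']
      have hc1 := hTc t hx t'⁻¹ (inv_mem (hRT t hx))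
      rw [hc1, ← mul_assoc, mul_assoc t t', mul_inv_cancel, mul_one]
  have cross : ∀ p q, π p ∈ TT hK → π q ∈ TT hK → refl K 0 * π p * refl K 0 = π p →
      refl K 0 * π q * refl K 0 = (π q)⁻¹ → Commute p q := by
    intro p q hp' hq' ep eq'
    have hzk : ⁅p, q⁆ ∈ π.ker := by
      rw [MonoidHom.mem_ker, map_commutatorElement]
      exact commutatorElement_eq_one_iff_mul_comm.2 (hTc _ hp' _ hq')
    have h1 : ⁅n * p * n⁻¹, n * q * n⁻¹⁆ = ⁅p, q⁻¹⁆ := Schur.commutator_congr hc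
      (by rw [map_mul, map_mul, map_inv, hn, hinv, ep])
      (by rw [map_mul, map_mul, map_inv, hn, hinv, eq', map_inv])
    have h2 : ⁅n * p * n⁻¹, n * q * n⁻¹⁆ = n * ⁅p, q⁆ * n⁻¹ := by
      simp only [commutatorElement_def]; group
    have h3 : ⁅p, q⁻¹⁆ = ⁅p, q⁆⁻¹ := by
      calc ⁅p, q⁻¹⁆ = q⁻¹ * ⁅p, q⁆⁻¹ * q := by simp only [commutatorElement_def]; group
        _ = _ := by rw [hz _ (inv_mem hzk) q⁻¹, inv_mul_cancel_right]
    rw [h2, hz _ hzk n, mul_inv_cancel_right, h3] at h1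
    refine commutatorElement_eq_one_iff_mul_comm.1 (hz2 _ hzk ?_)
    exact mul_eq_one_iff_eq_inv.2 h1
  obtain ⟨p, q, hp1, hq1, ep, eq1, e1⟩ := split x hx
  obtain ⟨p', q', hp2, hq2, ep', eq2, e2⟩ := split y hy
  have c1 : Commute p p' := cyc gp hgp (hp _ hp1 ep) (hp _ hp2 ep')
  have c2 : Commute q q' := cyc gm hgm (hm _ hq1 eq1) (hm _ hq2 eq2)
  have c3 : Commute p q' := cross p q' hp1 hq2 ep eq2
  have c4 : Commute q p' := (cross p' q hp2 hq1 ep' eq1).symm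
  have c : Commute (x * x) (y * y) := by
    refine commutatorElement_eq_one_iff_mul_comm.1 ?_
    rw [Schur.commutator_congr hc e1 e2]
    exact commutatorElement_eq_one_iff_mul_comm.2
      ((c1.mul_right c3).mul_left (c4.mul_right c2)).eq
  have hzk : ⁅x, y⁆ ∈ π.ker := by
    rw [MonoidHom.mem_ker, map_commutatorElement]
    exact commutatorElement_eq_one_iff_mul_comm.2 (hTc _ hx _ hy)
  have h4 : ⁅x * x, y * y⁆ = (⁅x, y⁆ * ⁅x, y⁆) * (⁅x, y⁆ * ⁅x, y⁆) := by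
    have hr1 : ∀ g : Γ, π g ∈ TT hK → ⁅g, y * y⁆ = ⁅g, y⁆ * ⁅g, y⁆ := fun g hg => by
      refine Schur.commutator_mul_right' (hz _ ?_ _)
      rw [MonoidHom.mem_ker, map_commutatorElement]
      exact commutatorElement_eq_one_iff_mul_comm.2 (hTc _ hg _ hy)
    rw [Schur.commutator_mul_left' (hz _ (by rw [hr1 x hx]; exact mul_mem hzk hzk) _), hr1 x hx]
  rw [commutatorElement_eq_one_iff_mul_comm.2 c.eq] at h4
  exact commutatorElement_eq_one_iff_mul_comm.1 (hz2 _ hzk (hz2 _ (mul_mem hzk hzk) h4.symm))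

/-- The lifts exist. -/
theorem exists_lifts : ∃ P : Lifts (tw hK) π, π.ker ⊓ P.Th = ⊥ := by
  classical
  haveI := charTwo hK
  obtain ⟨hz, hz2⟩ := kernel_facts hK hr hne hrange hc hA
  have hz' : ∀ z ∈ π.ker, ∀ g, g * z * g⁻¹ = z := fun z hz'' g => by
    rw [hz z hz'' g, mul_inv_cancel_right]
  obtain ⟨M, hM, hMk, hMmap⟩ := exists_complement Nat.prime_two hr hne hc hA (isPGroup_U hK)
    (by rw [hrange]; exact inf_le_right)
  have hMuniq : ∀ g, ∀ m' ∈ M, π (g * m' * g⁻¹) ∈ chevF4.posUnipotent K ⊓ (tw hK).G →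
      g * m' * g⁻¹ ∈ M := fun g m' hm h => (hM _).2 ⟨conj_mem_pElts ((hM m').1 hm).1 g, h⟩
  have Minj : ∀ a ∈ M, ∀ b ∈ M, π a = π b → a = b := fun a ha b hb e =>
    mul_inv_eq_one.1 (Subgroup.mem_bot.1 (hMk.le ⟨show π (a * b⁻¹) = 1 by
      rw [map_mul, map_inv, e, mul_inv_cancel], M.mul_mem ha (M.inv_mem hb)⟩))
  -- the reflections
  have hR : ∀ i, refl K i ∈ π.range := fun i => hrange ▸ (tw hK).n_mem i
  have hnex : ∀ i : Fin 2, ∃ n : Γ, n * n = 1 ∧ π n = refl K i := by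
    intro i
    have hk' : IsPGroup r π.rangeRestrict.ker := by rw [π.ker_rangeRestrict]; exact hA
    obtain ⟨t, ht, e⟩ := exists_pElt_lift Nat.prime_two hr hne π.rangeRestrict_surjective hk'
      (g := ⟨refl K i, hR i⟩) ⟨1, Subtype.ext (by
        rw [pow_one, SubmonoidClass.coe_pow, sq]; exact refl_sq hK i)⟩
    have e' : π t = refl K i := congrArg Subtype.val e
    obtain ⟨k, hk⟩ := ht
    refine ⟨t, D4.pElt_eq Nat.prime_two hr hne hc hA ⟨k, ?_⟩ ⟨0, by simp⟩ (by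
      rw [map_mul, e', map_one]; exact refl_sq hK i), e'⟩
    rw [(Commute.refl t).mul_pow, hk, one_mul]
  choose n hn2 hπn using hnex
  have ninv : ∀ i, (n i)⁻¹ = n i := fun i => inv_eq_of_mul_eq_one_left (hn2 i)
  have rinv : ∀ i, (refl K i)⁻¹ = refl K i := fun i => inv_eq_of_mul_eq_one_left (refl_sq hK i)
  -- the torus
  set TH : Subgroup Γ := (TT hK).comap π
  have hTHc : ∀ x ∈ TH, ∀ y ∈ TH, x * y = y * x := fun x hx y hy =>
    torus_lifts_commute hK hr hne hrange hc hA hx hy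
  have hnT : ∀ i, ∀ x ∈ TH, n i * x * (n i)⁻¹ ∈ TH := fun i x hx => by
    show π (n i * x * (n i)⁻¹) ∈ TT hK
    rw [map_mul, map_mul, map_inv, hπn]
    exact TT_conj hK i _ hx
  set w := n 0 * n 1 with hw
  have hwT : ∀ x ∈ TH, w * x * w⁻¹ ∈ TH := fun x hx => by
    have h := hnT 0 _ (hnT 1 x hx)
    rwa [show n 0 * (n 1 * x * (n 1)⁻¹) * (n 0)⁻¹ = w * x * w⁻¹ by rw [hw]; group] at h
  let φ : ↥TH →* Γ := MonoidHom.mk' (fun x => ⁅w, (x : Γ)⁆) fun x y => by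
    have h1 : ⁅w, (y : Γ)⁆ ∈ TH := by
      rw [commutatorElement_def]; exact mul_mem (hwT _ y.2) (inv_mem y.2)
    rw [Subgroup.coe_mul]
    refine (Schur.commutator_mul_right' ?_)
    exact hTHc _ x.2 _ h1
  have hφT : ∀ x : TH, φ x ∈ TH := fun x => by
    show ⁅w, (x : Γ)⁆ ∈ TH
    rw [commutatorElement_def]; exact mul_mem (hwT _ x.2) (inv_mem x.2)
  have hφfix : ∀ x : TH, π (φ x) = 1 → π (x : Γ) = 1 := by
    intro x hx
    refine rot_fix hK x.2 ?_
    have h : ⁅π w, π (x : Γ)⁆ = 1 := by rw [← map_commutatorElement]; exact hx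
    rw [hw, map_mul, hπn, hπn] at h
    exact commutatorElement_eq_one_iff_mul_comm.1 h
  have hφker : ∀ x : TH, π (φ x) = 1 → φ x = 1 := fun x hx =>
    commutatorElement_eq_one_iff_mul_comm.2 (hz _ (hφfix x hx) w)
  have hTinj : π.ker ⊓ φ.range = ⊥ := by
    rw [eq_bot_iff]
    rintro z ⟨hzk, x, rfl⟩
    exact Subgroup.mem_bot.2 (hφker x hzk)
  have hTmap : φ.range.map π = TT hK := by
    refine le_antisymm (Subgroup.map_le_iff_le_comap.2 ?_) fun t ht => ?_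
    · rintro _ ⟨x, rfl⟩; exact hφT x
    haveI : Finite ↥(TT hK) := Nat.finite_of_card_ne_zero (by
      rw [card_TT hK]
      have : 2 ≤ 2 ^ (2 * m + 1) := le_self_pow₀ (by omega) (by omega)
      exact pow_ne_zero _ (by omega))
    have hTr : ∀ t : TT hK, ∃ x : TH, π (x : Γ) = t := fun t => by
      obtain ⟨x, hx⟩ : (t : GL chevF4.Idx K) ∈ π.range := hrange ▸ TT_le_G hK t.2
      exact ⟨⟨x, show π x ∈ TT hK by rw [hx]; exact t.2⟩, hx⟩
    choose lift hlift using hTr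
    let f : TT hK → TT hK := fun t => ⟨π (φ (lift t)), hφT _⟩
    have hf : Function.Injective f := fun a b hab => by
      have e : π (φ (lift a)) = π (φ (lift b)) := congrArg Subtype.val hab
      have h := hφfix (lift a * (lift b)⁻¹) (by
        rw [map_mul, map_inv, map_mul, map_inv, e, mul_inv_cancel])
      rw [Subgroup.coe_mul, Subgroup.coe_inv, map_mul, map_inv, hlift, hlift, mul_inv_eq_one] at h
      exact Subtype.ext h
    obtain ⟨s, hs⟩ := (Finite.injective_iff_surjective.1 hf) ⟨t, ht⟩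
    exact ⟨φ (lift s), ⟨_, rfl⟩, congrArg Subtype.val hs⟩
  have nw : ∀ i, n i * w * (n i)⁻¹ = w⁻¹ := by
    rw [Fin.forall_fin_two, hw, mul_inv_rev, ninv, ninv]
    refine ⟨?_, ?_⟩
    · rw [← mul_assoc (n 0) (n 0), hn2, one_mul]
    · rw [mul_assoc, mul_assoc (n 0) (n 1), hn2, mul_one]
  have nconj : ∀ i, ∀ t ∈ φ.range, n i * t * (n i)⁻¹ ∈ φ.range := by
    rintro i _ ⟨x, rfl⟩
    have h1 := hnT i _ x.2
    have h2 : w⁻¹ * (n i * (x : Γ) * (n i)⁻¹) * w ∈ TH := by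
      have h := hnT 1 _ (hnT 0 _ h1)
      rw [show n 1 * (n 0 * (n i * (x : Γ) * (n i)⁻¹) * (n 0)⁻¹) * (n 1)⁻¹ =
        w⁻¹ * (n i * (x : Γ) * (n i)⁻¹) * w by
          rw [hw, mul_inv_rev, ninv 0, ninv 1]; simp only [mul_assoc]] at h
      exact h
    refine ⟨⟨_, h2⟩⁻¹, ?_⟩
    rw [map_inv]
    show ⁅w, w⁻¹ * (n i * (x : Γ) * (n i)⁻¹) * w⁆⁻¹ = n i * ⁅w, (x : Γ)⁆ * (n i)⁻¹
    have e : n i * ⁅w, (x : Γ)⁆ * (n i)⁻¹ =
        ⁅n i * w * (n i)⁻¹, n i * (x : Γ) * (n i)⁻¹⁆ := by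
      simp only [commutatorElement_def]; group
    rw [e, nw]
    simp only [commutatorElement_def]; group
  have hMT : ∀ t ∈ φ.range, ∀ a ∈ M, t * a * t⁻¹ ∈ M := by
    intro t ht a ha
    refine hMuniq t a ha ?_
    rw [map_mul, map_mul, map_inv]
    exact (Subgroup.mem_normalizer_iff.mp ((tw hK).T_normalizes
      (show π t ∈ TT hK from hTmap ▸ Subgroup.mem_map_of_mem π ht)) _).mp
      (hMmap ▸ Subgroup.mem_map_of_mem π ha)
  -- the words
  have h8 : w ^ 8 = 1 := by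
    have hW : (tw hK).wW [0, 1, 0, 1, 0, 1, 0, 1, 0, 1, 0, 1, 0, 1, 0, 1] = 1 := by
      have h := (tw hK).sameW (hbl hK) (A := [0, 1, 0, 1, 0, 1, 0, 1, 0, 1, 0, 1, 0, 1, 0, 1])
        (B := []) (by decide +kernel)
      rw [h, (tw hK).wW_nil]
    have hT : π (w ^ 8) ∈ TT hK := by
      have h := (tw hK).nW_mem_T hW
      simp only [Tw.nW_cons, Tw.nW_nil, Subgroup.coe_mul, Subgroup.coe_one, mul_one] at h
      rw [map_pow, hw, map_mul, hπn, hπn]
      simpa [pow_succ, mul_assoc, refl, tw] using h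
    have hk : π (w ^ 8) = 1 := rot_fix hK hT (by
      rw [← hπn 0, ← hπn 1, ← map_mul, ← map_mul, ← map_mul, ← hw, ← pow_succ', ← pow_succ])
    refine hz2 _ hk ?_
    have h1 : n 0 * w ^ 8 * (n 0)⁻¹ = (w ^ 8)⁻¹ := by rw [← conj_pow, nw, inv_pow]
    rw [hz' _ hk] at h1
    exact mul_eq_one_iff_eq_inv.2 h1
  obtain ⟨ψ, hψ0, hψ1⟩ := exists_dihedral_hom (hn2 0) (hn2 1) h8
  have hrel : ∀ L : List (Fin 2), (tw hK).wW L = 1 → (L.map n).prod = 1 := by
    have key : ∀ L : List (Fin 2), ∃ d, ψ d = (L.map n).prod ∧ dihHom d = (tw hK).wW L := by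
      intro L
      induction L with
      | nil => exact ⟨1, by simp, by rw [map_one, Tw.wW_nil]⟩
      | cons i L ih =>
        obtain ⟨d, hd1, hd2⟩ := ih
        obtain ⟨hA', hB'⟩ := dihHom_gen
        refine ⟨![DihedralGroup.sr 0, .sr 1] i * d, ?_, ?_⟩
        · rw [map_mul, hd1, List.map_cons, List.prod_cons]
          congr 1
          fin_cases i
          exacts [hψ0, hψ1]
        · rw [map_mul, hd2, Tw.wW_cons, blk_perm hK]
          congr 1
          fin_cases i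
          exacts [hA', hB']
    intro L hL
    obtain ⟨d, hd1, hd2⟩ := key L
    rw [hL, ← map_one dihHom] at hd2
    rw [← hd1, dihPerm_inj d 1 hd2, map_one]
  -- rank one
  let Mi : Fin 2 → Subgroup Γ := fun i => M ⊓ (XX hK i).comap π
  let Ok : Fin 2 → Γ → Prop := fun i a => ∃ a' ∈ M, ∃ t ∈ φ.range, ∃ a'' ∈ Mi i,
    n i * a * n i = a' * n i * t * a''
  have hMi : ∀ i (g : GL chevF4.Idx K), g ∈ XX hK i → ∃ a ∈ Mi i, π a = g := by
    intro i g hg
    have hgU : g ∈ chevF4.posUnipotent K ⊓ (tw hK).G := (tw hK).X_le_U i hg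
    rw [← hMmap] at hgU
    obtain ⟨a, ha, rfl⟩ := hgU
    exact ⟨a, ⟨ha, hg⟩, rfl⟩
  have hMiT : ∀ i, ∀ t ∈ φ.range, ∀ a ∈ Mi i, t * a * t⁻¹ ∈ Mi i := by
    intro i t ht a ha
    refine ⟨hMT t ht a ha.1, ?_⟩
    show π (t * a * t⁻¹) ∈ XX hK i
    obtain ⟨p, q, e⟩ := (mem_TT hK).1 (show π t ∈ TT hK from hTmap ▸ Subgroup.mem_map_of_mem π ht)
    have hfix := sigma_gen hK (TT_le_G hK (show π t ∈ TT hK from hTmap ▸ Subgroup.mem_map_of_mem π ht))
    rw [map_mul, map_mul, map_inv]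
    refine Subgroup.mem_inf.2 ⟨?_, mul_mem (mul_mem hfix ha.2.2) (inv_mem hfix)⟩
    rw [e]
    exact Sys.tor_conj_uSub S K _ ha.2.1
  have nt : ∀ i, ∀ t ∈ φ.range, n i * t * n i ∈ φ.range := fun i t ht => by
    have := nconj i t ht; rwa [ninv] at this
  have ok_conj : ∀ i, ∀ a, Ok i a → ∀ t ∈ φ.range, Ok i (t * a * t⁻¹) := by
    intro i a ⟨a', ha', s, hs, a'', ha'', e⟩ t ht
    set t' := n i * t * n i with ht'
    have ht'm := nt i t ht
    refine ⟨t' * a' * t'⁻¹, hMT _ ht'm a' ha', t * s * t'⁻¹, mul_mem (mul_mem ht hs) (inv_mem ht'm),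
      t' * a'' * t'⁻¹, hMiT i _ ht'm a'' ha'', ?_⟩
    have e1 : n i * (t * a * t⁻¹) * n i = t' * (n i * a * n i) * t'⁻¹ := by
      rw [ht', mul_inv_rev, mul_inv_rev, ninv]
      calc n i * (t * a * t⁻¹) * n i = n i * t * 1 * a * 1 * t⁻¹ * n i := by group
        _ = _ := by rw [← hn2 i]; group
    have e2 : t' * n i = n i * t := by rw [ht', mul_assoc, hn2, mul_one]
    calc n i * (t * a * t⁻¹) * n i = (t' * a' * t'⁻¹) * (t' * n i) * (s * a'' * t'⁻¹) := by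
          rw [e1, e]; group
      _ = _ := by rw [e2]; group
  have ok_back : ∀ i, ∀ a ∈ Mi i, ∀ y ∈ Mi i, n i * a * n i = y * n i * y⁻¹ → a * a = 1 →
      Ok i a ∧ Ok i y ∧ Ok i y⁻¹ := by
    intro i a ha y hy e ha2
    have e' : n i * y * n i = a * n i * y := by
      calc n i * y * n i = n i * (y * n i * y⁻¹) * y := by group
        _ = n i * (n i * a * n i) * y := by rw [e]
        _ = _ := by rw [← mul_assoc (n i), ← mul_assoc (n i), hn2, one_mul]
    refine ⟨⟨y, hy.1, 1, one_mem _, y⁻¹, inv_mem hy, by rw [mul_one]; exact e⟩,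
      ⟨a, ha.1, 1, one_mem _, y, hy, by rw [mul_one]; exact e'⟩,
      ⟨y⁻¹, inv_mem hy.1, 1, one_mem _, a, ha, ?_⟩⟩
    rw [mul_one]
    calc n i * y⁻¹ * n i = (n i * y * n i)⁻¹ := by rw [mul_inv_rev, mul_inv_rev, ninv, mul_assoc]
      _ = _ := by rw [e', mul_inv_rev, mul_inv_rev, ninv, inv_eq_of_mul_eq_one_left ha2, mul_assoc]
  have invol_base : ∀ i, ∀ a ∈ Mi i, ∀ y ∈ Mi i, a * a = 1 →
      refl K i * π a * refl K i = π y * refl K i * (π y)⁻¹ → n i * a * n i = y * n i * y⁻¹ := by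
    intro i a _ y _ ha2 e
    refine D4.pElt_eq Nat.prime_two hr hne hc hA ⟨1, ?_⟩ ⟨1, ?_⟩ (by
      rw [map_mul, map_mul, map_mul, map_mul, map_inv, hπn, e])
    · rw [pow_one, sq, show n i * a * n i * (n i * a * n i) = n i * a * (n i * n i) * a * n i by
        group, hn2, mul_one, mul_assoc (n i) a a, ha2, mul_one, hn2]
    · rw [pow_one, sq, show y * n i * y⁻¹ * (y * n i * y⁻¹) = y * (n i * n i) * y⁻¹ by group, hn2,
        mul_one, mul_inv_cancel]
  have minvol : ∀ i, ∀ a ∈ Mi i, π a * π a = 1 → a * a = 1 := fun i a ha h =>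
    Minj _ (mul_mem ha.1 ha.1) 1 (one_mem _) (by rw [map_mul, map_one, h])
  have Tlift : ∀ g ∈ TT hK, ∃ t ∈ φ.range, π t = g := fun g hg => by
    rw [← hTmap] at hg; exact hg
  -- the class of two roots
  have pair_sq : pairEl m (1 : K) * pairEl m (1 : K) = 1 := by
    rw [← pair_add hK, CharTwo.add_self_eq_zero]
    simp [pairEl, Sys.xG_zero, zero_pow (pow_ne_zero m two_ne_zero)]
  obtain ⟨p1, hp1, ep1⟩ := hMi 1 (pairEl m (1 : K)) ((mem_XX1 hK).2 ⟨1, rfl⟩)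
  have okp : Ok 1 p1 := by
    have h2 := minvol 1 p1 hp1 (by rw [ep1]; exact pair_sq)
    refine (ok_back 1 p1 hp1 p1 hp1 (invol_base 1 p1 hp1 p1 hp1 h2 ?_) h2).1
    rw [ep1, inv_eq_of_mul_eq_one_left pair_sq]
    exact pair_ident hK
  -- the class of four roots
  have quad_sq0 : quadEl m 27 25 28 30 (0 : K) 1 * quadEl m 27 25 28 30 (0 : K) 1 = 1 := by
    rw [quad_zero_add hK, CharTwo.add_self_eq_zero, TwoGenTwisted.F4.quad_one hK]
  obtain ⟨z1, hz1, ez1⟩ := hMi 0 _ ((mem_XX0 hK).2 ⟨0, (1 : K), rfl⟩)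
  obtain ⟨y1, hy1, ey1⟩ := hMi 0 _ ((mem_XX0 hK).2 ⟨(1 : K), (1 : K), rfl⟩)
  obtain ⟨okz, oky, oky'⟩ : Ok 0 z1 ∧ Ok 0 y1 ∧ Ok 0 y1⁻¹ := by
    have h2 := minvol 0 z1 hz1 (by rw [ez1]; exact quad_sq0)
    refine ok_back 0 z1 hz1 y1 hy1 (invol_base 0 z1 hz1 y1 hy1 h2 ?_) h2
    rw [ez1, ey1]
    exact quad_ident hK
  have hz1e : n 0 * z1 * n 0 = y1 * n 0 * y1⁻¹ := by
    have h2 := minvol 0 z1 hz1 (by rw [ez1]; exact quad_sq0)
    refine invol_base 0 z1 hz1 y1 hy1 h2 ?_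
    rw [ez1, ey1]
    exact quad_ident hK
  -- scaling by the torus
  have scale : ∀ {k : ℕ} (hk : k < 12) (u : K), u ≠ 0 → ∃ t ∈ φ.range, ∀ a,
      π t * elt m k a * (π t)⁻¹ = elt m k (u * a) := by
    intro k hk u hu
    obtain ⟨j, e, he⟩ := table_ex ⟨k, hk⟩
    obtain ⟨t, ht, -, hv⟩ := exists_split hK j.isLt hk he u hu
    obtain ⟨s, hs, es⟩ := Tlift _ ht
    obtain ⟨c, hc'⟩ := elt_tor hK hk (d := (t : GL chevF4.Idx K)) ht
    refine ⟨s, hs, fun a => ?_⟩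
    have ec : c = u := by
      rw [← hv]
      show c = co k ((t : GL chevF4.Idx K) * elt m k 1 * (t : GL chevF4.Idx K)⁻¹)
      rw [hc', (elt_co hK hk _).2, mul_one]
    rw [es]
    exact ec ▸ hc' a
  have ebase : ∀ {k : ℕ}, k < 12 → rot k = [] → ∀ a : K, elt m k a = base m (kind k) a :=
    fun {k} hk h a => by rw [elt_eq hK hk, h]; simp [nL]
  have rank : ∀ i, ∀ a ∈ Mi i, a ≠ 1 → Ok i a := by
    rw [Fin.forall_fin_two]
    constructor
    · -- four roots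
      intro a ha hne
      obtain ⟨d, u, ea⟩ := (mem_XX0 hK).1 ha.2
      have eqa : ∀ b ∈ Mi 0, π b = π a → b = a := fun b hb e => Minj b hb.1 a ha.1 e
      have he0 : ∀ c : K, elt m 0 c = quadEl m 27 25 28 30 c 0 := fun c => by
        rw [ebase (by omega) (by decide +kernel) c, show kind 0 = 0 by decide +kernel, base_zero hK]
      have he1 : ∀ c : K, elt m 1 c = quadEl m 27 25 28 30 0 c := fun c => by
        rw [ebase (by omega) (by decide +kernel) c, show kind 1 = 1 by decide +kernel, base_one hK]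
      -- conjugates of the central element
      have central : ∀ v : K, v ≠ 0 → ∃ t ∈ φ.range, π (t * z1 * t⁻¹) = quadEl m 27 25 28 30 0 v := by
        intro v hv
        obtain ⟨t, ht, h⟩ := scale (k := 1) (by omega) v hv
        refine ⟨t, ht, ?_⟩
        have h1 := h 1
        rw [he1, he1, mul_one] at h1
        rw [map_mul, map_mul, map_inv, ez1]
        exact h1
      have yval : ∀ t ∈ φ.range, ∀ ν : K, (∀ c, π t * elt m 0 c * (π t)⁻¹ = elt m 0 (ν * c)) →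
          ∃ v, π (t * y1 * t⁻¹) = quadEl m 27 25 28 30 ν v ∧ v = ν ^ (2 ^ m) * ν := by
        intro t ht ν h
        refine ⟨_, ?_, rfl⟩
        have h1 := h 1
        rw [he0, he0, mul_one] at h1
        have e := congrArg (·⁻¹) h1
        rw [show (π t * quadEl m 27 25 28 30 1 0 * (π t)⁻¹)⁻¹ =
          π t * (quadEl m 27 25 28 30 1 0)⁻¹ * (π t)⁻¹ by group,
          TwoGenTwisted.F4.quad_inv hK, TwoGenTwisted.F4.quad_inv hK, one_pow, one_mul, zero_add,
          zero_add] at e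
        rw [map_mul, map_mul, map_inv, ey1]
        exact e
      by_cases hd : d = 0
      · subst hd
        have hu : u ≠ 0 := fun e => hne (Minj _ ha.1 1 (one_mem _) (by
          rw [map_one, ea, e, TwoGenTwisted.F4.quad_one hK]))
        obtain ⟨t, ht, e⟩ := central u hu
        rw [← eqa _ (hMiT 0 t ht z1 hz1) (e.trans ea.symm)]
        exact ok_conj 0 z1 okz t ht
      by_cases hu0 : u = d ^ (2 ^ m) * d
      · obtain ⟨t, ht, h⟩ := scale (k := 0) (by omega) d hd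
        obtain ⟨v, e, ev⟩ := yval t ht d h
        rw [← eqa _ (hMiT 0 t ht y1 hy1) (e.trans (by rw [ea, ev, ← hu0]))]
        exact ok_conj 0 y1 oky t ht
      by_cases hu1 : u = 0
      · subst hu1
        obtain ⟨t, ht, h⟩ := scale (k := 0) (by omega) d hd
        have h1 := h 1
        rw [he0, he0, mul_one] at h1
        have e : π (t * y1⁻¹ * t⁻¹) = π a := by
          rw [map_mul, map_mul, map_inv, map_inv, ey1, ea, TwoGenTwisted.F4.quad_inv hK, one_pow,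
            one_mul, CharTwo.add_self_eq_zero]
          exact h1
        rw [← eqa _ (hMiT 0 t ht _ (inv_mem hy1)) e]
        exact ok_conj 0 _ oky' t ht
      -- a product of two opposite elements
      have hdθ : d ^ 2 ^ m ≠ 0 := pow_ne_zero _ hd
      obtain ⟨τ, hτ⟩ : ∃ τ : K, τ + d = u / d ^ 2 ^ m :=
        ⟨u / d ^ 2 ^ m + d, by rw [add_assoc, CharTwo.add_self_eq_zero, add_zero]⟩
      have hs0 : τ + d ≠ 0 := hτ ▸ div_ne_zero hu1 hdθ
      have hτ0 : τ ≠ 0 := fun e => by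
        rw [e, zero_add, eq_div_iff hdθ] at hτ
        exact hu0 (by rw [← hτ, mul_comm])
      obtain ⟨t₁, ht₁, h₁⟩ := scale (k := 0) (by omega) τ hτ0
      obtain ⟨t₂, ht₂, h₂⟩ := scale (k := 0) (by omega) (τ + d) hs0
      obtain ⟨v₁, e₁, ev₁⟩ := yval t₁ ht₁ τ h₁
      obtain ⟨v₂, e₂, ev₂⟩ := yval t₂ ht₂ (τ + d) h₂
      set z₁ := t₁ * z1 * t₁⁻¹
      set z₂ := t₂ * z1 * t₂⁻¹
      set s₁ := n 0 * t₁ * n 0
      set s₂ := n 0 * t₂ * n 0
      -- the images under the reflection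
      have img : ∀ t ∈ φ.range, n 0 * (t * z1 * t⁻¹) * n 0 =
          (n 0 * t * n 0) * y1 * (n 0 * t * n 0)⁻¹ * n 0 * (t * (n 0 * t * n 0)⁻¹) *
            ((n 0 * t * n 0) * y1⁻¹ * (n 0 * t * n 0)⁻¹) := by
        intro t ht
        calc n 0 * (t * z1 * t⁻¹) * n 0 = (n 0 * t * n 0) * (n 0 * z1 * n 0) * (n 0 * t * n 0)⁻¹ := by
              rw [mul_inv_rev, mul_inv_rev, ninv]
              calc n 0 * (t * z1 * t⁻¹) * n 0 = n 0 * t * 1 * z1 * 1 * t⁻¹ * n 0 := by group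
                _ = _ := by rw [← hn2 0]; group
          _ = _ := by
              rw [hz1e]
              have e2 : (n 0 * t * n 0) * n 0 = n 0 * t := by rw [mul_assoc, hn2, mul_one]
              calc n 0 * t * n 0 * (y1 * n 0 * y1⁻¹) * (n 0 * t * n 0)⁻¹ =
                  (n 0 * t * n 0) * y1 * (n 0 * t * n 0)⁻¹ * (n 0 * t * n 0 * n 0) *
                    (y1⁻¹ * (n 0 * t * n 0)⁻¹) := by group
                _ = _ := by rw [e2]; group
      -- replace the conjugating elements so that the middle is the given element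
      set r₁ := n 0 * t₁ * n 0
      set r₂ := n 0 * t₂ * n 0
      have key : ∀ x₁ ∈ φ.range, ∀ x₂ ∈ φ.range,
          (n 0 * x₁ * n 0) * y1⁻¹ * (n 0 * x₁ * n 0)⁻¹ * ((n 0 * x₂ * n 0) * y1 * (n 0 * x₂ * n 0)⁻¹) =
            a → Ok 0 a := by
        intro x₁ hx₁ x₂ hx₂ ha'
        set Y₁ := (n 0 * x₁ * n 0) * y1 * (n 0 * x₁ * n 0)⁻¹ with hY₁
        set Y₂ := (n 0 * x₂ * n 0) * y1 * (n 0 * x₂ * n 0)⁻¹ with hY₂
        set T₁ := x₁ * (n 0 * x₁ * n 0)⁻¹
        set T₂ := x₂ * (n 0 * x₂ * n 0)⁻¹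
        have hY₁i : (n 0 * x₁ * n 0) * y1⁻¹ * (n 0 * x₁ * n 0)⁻¹ = Y₁⁻¹ := by rw [hY₁]; group
        have hY₂i : (n 0 * x₂ * n 0) * y1⁻¹ * (n 0 * x₂ * n 0)⁻¹ = Y₂⁻¹ := by rw [hY₂]; group
        have i₁ : n 0 * (x₁ * z1 * x₁⁻¹) * n 0 = Y₁ * n 0 * T₁ * Y₁⁻¹ := by rw [img x₁ hx₁, hY₁i]
        have i₂ : n 0 * (x₂ * z1 * x₂⁻¹) * n 0 = Y₂ * n 0 * T₂ * Y₂⁻¹ := by rw [img x₂ hx₂, hY₂i]
        have hY₁m : Y₁ ∈ Mi 0 := hMiT 0 _ (nt 0 x₁ hx₁) y1 hy1
        have hY₂m : Y₂ ∈ Mi 0 := hMiT 0 _ (nt 0 x₂ hx₂) y1 hy1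
        have hT₁ : T₁ ∈ φ.range := mul_mem hx₁ (inv_mem (nt 0 x₁ hx₁))
        have hT₂ : T₂ ∈ φ.range := mul_mem hx₂ (inv_mem (nt 0 x₂ hx₂))
        rw [hY₁i] at ha'
        set c := (x₁ * z1 * x₁⁻¹) * (x₂ * z1 * x₂⁻¹) with hcdef
        have hcM : c ∈ Mi 0 := mul_mem (hMiT 0 x₁ hx₁ z1 hz1) (hMiT 0 x₂ hx₂ z1 hz1)
        have prod_eq : n 0 * c * n 0 = Y₁ * (n 0 * T₁ * n 0) * (n 0 * a * n 0) * T₂ * Y₂⁻¹ := by
          calc n 0 * c * n 0 = (n 0 * (x₁ * z1 * x₁⁻¹) * n 0) * (n 0 * (x₂ * z1 * x₂⁻¹) * n 0) := by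
                rw [hcdef]
                calc n 0 * (x₁ * z1 * x₁⁻¹ * (x₂ * z1 * x₂⁻¹)) * n 0 =
                    n 0 * (x₁ * z1 * x₁⁻¹) * 1 * (x₂ * z1 * x₂⁻¹) * n 0 := by group
                  _ = _ := by rw [← hn2 0]; group
            _ = Y₁ * n 0 * T₁ * (Y₁⁻¹ * Y₂) * n 0 * T₂ * Y₂⁻¹ := by rw [i₁, i₂]; group
            _ = Y₁ * n 0 * T₁ * 1 * a * n 0 * T₂ * Y₂⁻¹ := by rw [ha']; group
            _ = _ := by rw [← hn2 0]; group
        have hc1 : c ≠ 1 := fun e => by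
          rw [hcdef, mul_eq_one_iff_eq_inv] at e
          refine hne ?_
          rw [← ha', show Y₁⁻¹ * Y₂ = 1 from ?_]
          have h2 : z1⁻¹ = z1 := inv_eq_of_mul_eq_one_left (minvol 0 z1 hz1 (by rw [ez1]; exact quad_sq0))
          rw [show (x₂ * z1 * x₂⁻¹)⁻¹ = x₂ * z1⁻¹ * x₂⁻¹ by group, h2] at e
          have e' : Y₁ * n 0 * T₁ * Y₁⁻¹ = Y₂ * n 0 * T₂ * Y₂⁻¹ := by rw [← i₁, ← i₂, e]
          -- uniqueness of the normal form
          have eπ := congrArg π e'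
          simp only [map_mul, map_inv, hπn] at eπ
          have hTπ : ∀ T ∈ φ.range, π T ∈ TT hK := fun T hT => hTmap ▸ Subgroup.mem_map_of_mem π hT
          have hU : ∀ Y ∈ Mi 0, π Y ∈ chevF4.posUnipotent K := fun Y hY =>
            uSub_le_posUnipotent K _ hY.2.1
          have hbor : ∀ Y ∈ Mi 0, ∀ T ∈ φ.range, π Y * (refl K 0 * π T * (refl K 0)⁻¹) ∈
              chevF4.borelSubgroup K := fun Y hY T hT =>
            mul_mem (Subgroup.mem_sup_left (hU Y hY))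
              (Subgroup.mem_sup_right (TT_conj hK 0 _ (hTπ T hT)).1)
          have huq := Sys.normal_form_unique S K (hbor Y₁ hY₁m T₁ hT₁) (hbor Y₂ hY₂m T₂ hT₂)
            (n := refl K 0) (u := (π Y₁)⁻¹) (u' := (π Y₂)⁻¹)
            (by rw [refl, wN_blk]; exact flip_neg 0 (inv_mem hY₁m.2.1))
            (by rw [refl, wN_blk]; exact flip_neg 0 (inv_mem hY₂m.2.1)) (by
              simpa [mul_assoc] using eπ)
          have h12 : Y₁ = Y₂ := Minj _ hY₁m.1 _ hY₂m.1 (inv_inj.1 huq.2)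
          rw [h12, inv_mul_cancel]
        obtain ⟨tc, htc, ec⟩ : ∃ tc ∈ φ.range, π (tc * z1 * tc⁻¹) = π c := by
          have hcπ : ∃ w, π c = quadEl m 27 25 28 30 0 w := by
            have e : ∀ x ∈ φ.range, ∃ w, π (x * z1 * x⁻¹) = quadEl m 27 25 28 30 0 w := by
              intro x hx
              obtain ⟨ν, hν⟩ := elt_tor hK (show 1 < 12 by omega)
                (d := π x) (hTmap ▸ Subgroup.mem_map_of_mem π hx)
              refine ⟨ν * 1, ?_⟩
              have := hν 1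
              rw [he1, he1] at this
              rw [map_mul, map_mul, map_inv, ez1]
              exact this
            obtain ⟨w₁, hw₁⟩ := e x₁ hx₁
            obtain ⟨w₂, hw₂⟩ := e x₂ hx₂
            exact ⟨w₁ + w₂, by rw [hcdef, map_mul, hw₁, hw₂, quad_zero_add hK]⟩
          obtain ⟨w, hw⟩ := hcπ
          have hw0 : w ≠ 0 := fun e => hc1 (Minj _ hcM.1 1 (one_mem _) (by
            rw [map_one, hw, e, TwoGenTwisted.F4.quad_one hK]))
          obtain ⟨t, ht, e⟩ := central w hw0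
          exact ⟨t, ht, e.trans hw.symm⟩
        obtain ⟨c', hc', sc, hsc, c'', hc'', okc⟩ : Ok 0 c := by
          rw [← Minj _ (hMT tc htc z1 hz1.1) c hcM.1 ec]
          exact ok_conj 0 z1 okz tc htc
        -- solve for the reflected element
        have hT₁' : n 0 * T₁ * n 0 ∈ φ.range := nt 0 T₁ hT₁
        refine ⟨(n 0 * T₁ * n 0)⁻¹ * (Y₁⁻¹ * c') * (n 0 * T₁ * n 0), ?_,
          (n 0 * (n 0 * T₁ * n 0)⁻¹ * n 0) * sc * T₂⁻¹,
          mul_mem (mul_mem (nt 0 _ (inv_mem hT₁')) hsc) (inv_mem hT₂),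
          T₂ * (c'' * Y₂) * T₂⁻¹, hMiT 0 T₂ hT₂ _ (mul_mem hc'' hY₂m), ?_⟩
        · have := hMT _ (inv_mem hT₁') _ (mul_mem (inv_mem hY₁m.1) hc')
          rwa [inv_inv] at this
        · rw [okc] at prod_eq
          calc n 0 * a * n 0 = (n 0 * T₁ * n 0)⁻¹ * Y₁⁻¹ *
              (Y₁ * (n 0 * T₁ * n 0) * (n 0 * a * n 0) * T₂ * Y₂⁻¹) * Y₂ * T₂⁻¹ := by group
            _ = (n 0 * T₁ * n 0)⁻¹ * Y₁⁻¹ * c' * n 0 * sc * c'' * Y₂ * T₂⁻¹ := by
                rw [← prod_eq]; group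
            _ = (n 0 * T₁ * n 0)⁻¹ * (Y₁⁻¹ * c') * (n 0 * T₁ * n 0) *
                ((n 0 * T₁ * n 0)⁻¹ * n 0) * sc * T₂⁻¹ * (T₂ * (c'' * Y₂) * T₂⁻¹) := by group
            _ = _ := by
                rw [show (n 0 * T₁ * n 0)⁻¹ * n 0 = n 0 * (n 0 * (n 0 * T₁ * n 0)⁻¹ * n 0) by
                  rw [mul_inv_rev, mul_inv_rev, ninv]
                  simp only [← mul_assoc, hn2, one_mul]]
                group
      refine key (n 0 * t₁ * n 0) (nt 0 t₁ ht₁) (n 0 * t₂ * n 0) (nt 0 t₂ ht₂) (eqa _ ?_ ?_)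
      · exact mul_mem (hMiT 0 _ (nt 0 _ (nt 0 t₁ ht₁)) _ (inv_mem hy1))
          (hMiT 0 _ (nt 0 _ (nt 0 t₂ ht₂)) _ hy1)
      have nn : ∀ t, n 0 * (n 0 * t * n 0) * n 0 = t := fun t => by
        rw [← mul_assoc (n 0), ← mul_assoc (n 0), hn2, one_mul, mul_assoc, hn2, mul_one]
      have e₁' : π (t₁ * y1⁻¹ * t₁⁻¹) = (quadEl m 27 25 28 30 τ v₁)⁻¹ := by
        rw [← e₁, ← map_inv]; congr 1; group
      rw [nn, nn, map_mul, e₁', e₂, ea, TwoGenTwisted.F4.quad_inv hK, TwoGenTwisted.F4.quad_mul hK,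
        ev₁, ev₂]
      congr 1
      · rw [← add_assoc, CharTwo.add_self_eq_zero, zero_add]
      · have hud : u = d ^ 2 ^ m * (τ + d) := by rw [hτ, mul_div_cancel₀ _ hdθ]
        rw [hud, add_pow_char_pow]
        have h2 := CharTwo.add_self_eq_zero (τ ^ 2 ^ m * τ)
        have h3 := CharTwo.add_self_eq_zero (τ ^ 2 ^ m * (τ + d))
        linear_combination h2 + h3
    · -- two roots
      intro a ha hne
      obtain ⟨v, ea⟩ := (mem_XX1 hK).1 ha.2
      have hv : v ≠ 0 := fun e => hne (Minj _ ha.1 1 (one_mem _) (by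
        rw [map_one, ea, e]
        simp [pairEl, Sys.xG_zero, zero_pow (pow_ne_zero m two_ne_zero)]))
      obtain ⟨t, ht, h⟩ := scale (k := 2) (by omega) v hv
      have h1 := h 1
      rw [ebase (by omega) (by decide +kernel), ebase (by omega) (by decide +kernel),
        show kind 2 = 2 by decide +kernel, base_two hK, base_two hK, mul_one] at h1
      have e : π (t * p1 * t⁻¹) = π a := by rw [map_mul, map_mul, map_inv, ep1, ea]; exact h1
      rw [← Minj _ (hMT t ht p1 hp1.1) a ha.1 e]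
      exact ok_conj 1 p1 okp t ht
  refine ⟨{ M := M, Th := φ.range, n := n, M_map := hMmap, M_inj := hMk, M_conj := hMuniq,
            Th_map := hTmap, π_n := hπn, n_sq := fun i => by rw [hn2]; exact one_mem _,
            n_conj := nconj, rel := fun L hL => by rw [hrel L hL]; exact one_mem _,
            rank_one := fun i a ha hx h1 => ?_ }, hTinj⟩
  obtain ⟨a', ha', t, ht, a'', ha'', e⟩ := rank i a ⟨ha, hx⟩ h1
  exact ⟨a', ha', t, ht, a'', ha''.1, ha''.2, by rw [ninv]; exact e⟩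

omit hr hne hrange hc hA [Group Γ] [Finite Γ] in
/-- The multiplier has no part at an odd prime. -/
theorem noMult_odd {r : ℕ} (hr : r.Prime) (hne : r ≠ 2) :
    NoMult r ↥(Cfsg.Lie.twistedF4 K (2 ^ m)) := by
  intro Δ _ _ σ hs hc hA
  let π' : Δ →* GL chevF4.Idx K := (tw hK).G.subtype.comp σ
  have hk : π'.ker = σ.ker :=
    MonoidHom.ker_comp_of_injective σ _ (Subgroup.subtype_injective _)
  have hrange : π'.range = (tw hK).G := by
    show ((Subgroup.subtype (Cfsg.Lie.twistedF4 K (2 ^ m))).comp σ).range = (tw hK).G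
    rw [MonoidHom.range_comp, MonoidHom.range_eq_top.2 hs, ← MonoidHom.range_eq_map]
    exact Subgroup.range_subtype _
  obtain ⟨P, hT⟩ := exists_lifts hK (π := π') hr hne hrange (hk ▸ hc) (hk ▸ hA)
  rw [← hk]
  exact P.ker_inf_commutator (hk ▸ hc) hrange hT

end CfsgLib.SchurRee4
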