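import Cfsg.Agent.SchurRee4.Roots
import Cfsg.Agent.TwistedLie.F4Perfect
import Cfsg.Agent.TwoGenTwisted.F4

/-!
# Root elements of the twelve layers
-/

set_option autoImplicit false

namespace CfsgLib.SchurRee4

open Cfsg.Lie CfsgLib.Chevalley CfsgLib.TwistedLie CfsgLib.TwistedLie.F4 CfsgLib.TwoGenTwisted
open CfsgLib.TwoGenTwisted.F4

local notation "S" => sysF4

/-- The shape and the rotation of a layer. -/
def shapes : List (ℕ × ℕ) := [(0, 0), (1, 0), (2, 0), (0, 3), (0, 2), (0, 1), (2, 5), (1, 3),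
  (2, 7), (2, 6), (1, 1), (1, 2)]

/-- The roots of a shape. -/
def baseR : ℕ → List ℕ
  | 0 => [27, 25, 28]
  | 1 => [28, 30]
  | _ => [33, 24]

/-- The shape of a layer. -/
def kind (k : ℕ) : ℕ := (shapes.getD k (0, 0)).1

/-- The word of a layer. -/
def rot (k : ℕ) : List ℕ := (List.replicate (shapes.getD k (0, 0)).2 LW).flatten

variable {K : Type*} [Field K]

/-- The coefficients of a shape. -/
def baseV (m : ℕ) : ℕ → K → List K
  | 0, a => [a ^ 2 ^ m, a, a ^ (2 ^ m + 1)]
  | 1, a => [a, a ^ (2 * 2 ^ m)]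
  | _, a => [a ^ 2 ^ m, a]

/-- The element of a shape. -/
noncomputable def base (m i : ℕ) (a : K) : GL chevF4.Idx K :=
  Sys.wG S K ((baseR i).zip (baseV m i a))

/-- The element of a layer. -/
noncomputable def elt (m k : ℕ) (a : K) : GL chevF4.Idx K :=
  Sys.wG S K (((baseR (kind k)).map (wL chevF4 (rot k))).zip (baseV m (kind k) a))

theorem kind_lt : ∀ k : Fin 12, kind k < 3 := by decide +kernel

theorem rot_lt : ∀ k : Fin 12, ∀ r ∈ rot k, r < 4 := by decide +kernel

theorem baseR_pos : ∀ i < 3, ∀ r ∈ baseR i, 24 ≤ r ∧ r < 48 := by decide +kernel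

theorem img_facts : ∀ k : Fin 12,
    (∀ r ∈ (baseR (kind k)).map (wL chevF4 (rot k)), r ∈ upL k) ∧
    ((baseR (kind k)).map (wL chevF4 (rot k))).idxOf (rep k) = (if kind k = 1 then 0 else 1) ∧
    ((baseR (kind k)).map (wL chevF4 (rot k))).count (rep k) = 1 := by
  decide +kernel

theorem conj_list_prod {G : Type*} [Group G] (n : G) : ∀ l : List G,
    n * l.prod * n⁻¹ = (l.map fun x => n * x * n⁻¹).prod
  | [] => by simp
  | x :: l => by
    rw [List.prod_cons, List.map_cons, List.prod_cons, ← conj_list_prod n l]; group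

theorem wG_conj [CharP K 2] {L : List ℕ} (hL : ∀ a ∈ L, a < 4) : ∀ {R : List ℕ} (V : List K),
    (∀ r ∈ R, r < 48) → nL S K L * Sys.wG S K (R.zip V) * (nL S K L)⁻¹ =
      Sys.wG S K ((R.map (wL chevF4 L)).zip V) := by
  intro R
  induction R with
  | nil => intro V _; simp [Sys.wG]
  | cons r R ih =>
    intro V hR
    cases V with
    | nil => simp [Sys.wG]
    | cons v V =>
      have h1 := nL_conj_one hL (hR r (List.mem_cons_self ..)) v
      have h2 := ih V fun x hx => hR x (List.mem_cons_of_mem _ hx)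
      simp only [Sys.wG, List.zip_cons_cons, List.map_cons, List.prod_cons] at h2 ⊢
      rw [← h1, ← h2]
      group

variable [Fintype K] {m : ℕ} (hK : Fintype.card K = 2 ^ (2 * m + 1))
include hK

local notation "G1" => chevF4.genSubgroup K (f4Words K (2 ^ m))
local notation "θ" => 2 ^ m

theorem elt_eq {k : ℕ} (hk : k < 12) (a : K) :
    elt m k a = nL S K (rot k) * base m (kind k) a * (nL S K (rot k))⁻¹ := by
  haveI := charTwo hK
  exact (wG_conj (rot_lt ⟨k, hk⟩) _ fun r hr => (baseR_pos _ (kind_lt ⟨k, hk⟩) r hr).2).symm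

theorem base_zero (a : K) : base m 0 a = quadEl m 27 25 28 30 a 0 := by
  simp [base, baseR, baseV, quadEl, Sys.wG, Sys.xG_zero,
    zero_pow (mul_ne_zero two_ne_zero (pow_ne_zero m two_ne_zero)), mul_assoc]

theorem base_one (a : K) : base m 1 a = quadEl m 27 25 28 30 0 a := by
  rw [quad_zero hK]
  simp [base, baseR, baseV, Sys.wG]

theorem base_two (a : K) : base m 2 a = pairEl m a := by
  simp [base, baseR, baseV, pairEl, Sys.wG]

theorem rot_mem {k : ℕ} (hk : k < 12) : nL S K (rot k) ∈ G1 := by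
  have h : ∀ j, nL S K (List.replicate j LW).flatten ∈ G1 := nL_rep_mem S K (nLW_mem hK)
  exact h _

theorem base_mem {i : ℕ} (hi : i < 3) (a : K) : base m i a ∈ G1 := by
  interval_cases i
  · rw [base_zero hK]; exact (quad_mem hK a 0).1
  · rw [base_one hK]; exact (quad_mem hK 0 a).1
  · rw [base_two hK]; exact (pair_mem a).1

theorem elt_mem_G {k : ℕ} (hk : k < 12) (a : K) : elt m k a ∈ G1 := by
  rw [elt_eq hK hk]
  exact mul_mem (mul_mem (rot_mem hK hk) (base_mem hK (kind_lt ⟨k, hk⟩) a))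
    (inv_mem (rot_mem hK hk))

theorem pair_add (s v : K) : pairEl m (s + v) = pairEl m s * pairEl m v := by
  haveI := charTwo hK
  rw [pairEl, pairEl, pairEl, add_pow_char_pow, ← Sys.xG_add, ← Sys.xG_add]
  have h := (orth_commute S K (show orthB chevF4 33 24 = true by decide +kernel) (v ^ θ) (s)).eq
  calc _ = Sys.xG S K 33 (s ^ θ) * (Sys.xG S K 33 (v ^ θ) * Sys.xG S K 24 s) * Sys.xG S K 24 v := by
        simp only [mul_assoc]
    _ = _ := by rw [h]; simp only [mul_assoc]

/-- The shapes are additive, the first one up to the second. -/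
theorem base_add (a b : K) :
    base m 0 a * base m 0 b = base m 0 (a + b) * base m 1 (a ^ θ * b) ∧
    base m 1 (a + b) = base m 1 a * base m 1 b ∧
    base m 2 (a + b) = base m 2 a * base m 2 b := by
  refine ⟨?_, ?_, ?_⟩
  · rw [base_zero hK, base_zero hK, base_zero hK, base_one hK, quad_mul hK]
    simp only [zero_add, add_zero]
    exact quad_split hK _ _
  · simp only [base_one hK, quad_zero_add hK]
  · simp only [base_two hK, pair_add hK]

theorem elt_add {k : ℕ} (hk : k < 12) (a b : K) (h : kind k ≠ 0) :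
    elt m k (a + b) = elt m k a * elt m k b := by
  rw [elt_eq hK hk, elt_eq hK hk, elt_eq hK hk]
  have hk3 := kind_lt ⟨k, hk⟩
  simp only at hk3
  have e : base m (kind k) (a + b) = base m (kind k) a * base m (kind k) b := by
    rcases (by omega : kind k = 1 ∨ kind k = 2) with e | e <;> rw [e]
    exacts [(base_add hK a b).2.1, (base_add hK a b).2.2]
  rw [e]; group

theorem elt_add_mod {k l : ℕ} (hk : k < 12) (hl : l < 12) (h0 : kind k = 0) (h1 : kind l = 1)
    (hr : rot k = rot l) (a b : K) :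
    elt m k a * elt m k b = elt m k (a + b) * elt m l (a ^ θ * b) := by
  rw [elt_eq hK hk, elt_eq hK hk, elt_eq hK hk, elt_eq hK hl, h0, h1, ← hr]
  rw [conj_mul, conj_mul, (base_add hK a b).1]

/-- The torus acts on a shape by a scalar. -/
theorem base_tor {i : ℕ} (hi : i < 3) {d : GL chevF4.Idx K} (hd : d ∈ TT hK) :
    ∃ c : K, ∀ a, d * base m i a * d⁻¹ = base m i (c * a) := by
  obtain ⟨a0, b0, rfl⟩ := (mem_TT hK).mp hd
  have hG := cv_mem hK a0 b0
  interval_cases i
  · exact ⟨_, fun a => by rw [base_zero hK, base_zero hK, tor_quad hK hG, mul_zero]⟩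
  · exact ⟨_, fun a => by rw [base_one hK, base_one hK, tor_quad hK hG, mul_zero]⟩
  · refine ⟨(torusVal chevF4 (cv m a0 b0) 24 : K), fun a => ?_⟩
    rw [base_two hK, base_two hK, pairEl, pairEl, ← conj_mul,
      Sys.tor_conj S K _ (show 33 < chevF4.nroots by decide),
      Sys.tor_conj S K _ (show 24 < chevF4.nroots by decide), mul_pow]
    congr 3
    obtain ⟨v0, -, -, v3⟩ := vals (cv m a0 b0)
    rw [v0, v3, ← Units.val_pow_eq_pow_val]
    refine congrArg Units.val ?_
    have hq : ∀ x : Kˣ, x ^ (2 * θ * θ) = x := fun x => Units.ext (by simpa using sq_pow hK (x : K))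
    simp only [cv, four, if_true, if_false, OfNat.ofNat_ne_zero, OfNat.ofNat_ne_one, one_ne_zero,
      Nat.reduceEqDiff]
    rw [mul_pow, zpow_neg_one, zpow_neg_one, zpow_ofNat, zpow_ofNat, inv_pow, ← pow_mul,
      ← pow_mul, ← pow_mul, hq, show 2 * θ * (2 * θ) = 2 * θ * θ * 2 by ring, pow_mul, hq, mul_comm]

theorem rot_conj_T {k : ℕ} {d : GL chevF4.Idx K} (hd : d ∈ TT hK) :
    (nL S K (rot k))⁻¹ * d * nL S K (rot k) ∈ TT hK := by
  obtain ⟨e0, e1⟩ : nL S K (blkN 0) = (Sys.wN S K (blkF 0) : GL chevF4.Idx K) ∧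
      nL S K (blkN 1) = (Sys.wN S K (blkF 1) : GL chevF4.Idx K) := ⟨(wN_blk 0).symm, (wN_blk 1).symm⟩
  have hstep : ∀ j, ∀ d ∈ TT hK, (nL S K (List.replicate j LW).flatten)⁻¹ * d *
      nL S K (List.replicate j LW).flatten ∈ TT hK := by
    intro j
    induction j with
    | zero => intro d hd; simpa [nL] using hd
    | succ j ih =>
      intro d hd
      rw [List.replicate_succ, List.flatten_cons, nL_append, mul_inv_rev,
        show LW = blkN 0 ++ blkN 1 from rfl, nL_append, mul_inv_rev, e0, e1]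
      have h2 := ih _ ((tw hK).T_conj' 1 _ ((tw hK).T_conj' 0 d hd))
      simp only [mul_assoc] at h2 ⊢
      exact h2
  exact hstep _ d hd

theorem elt_tor {k : ℕ} (hk : k < 12) {d : GL chevF4.Idx K} (hd : d ∈ TT hK) :
    ∃ c : K, ∀ a, d * elt m k a * d⁻¹ = elt m k (c * a) := by
  obtain ⟨c, hc⟩ := base_tor hK (kind_lt ⟨k, hk⟩) (rot_conj_T hK (k := k) hd)
  refine ⟨c, fun a => ?_⟩
  rw [elt_eq hK hk, elt_eq hK hk, ← hc]
  group

end CfsgLib.SchurRee4
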