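import Cfsg.Agent.Schur.CentralCommutator
import Cfsg.Agent.ReeMult.Degree

/-!
# Central extensions over a layered unipotent group

A group with a central series whose layers are coordinatised by a field, on which a torus acts by
weights: when no invariant pairing between two layers survives, the kernel of a central extension
by a two-group meets the derived subgroup of the preimage trivially.
-/

set_option autoImplicit false

namespace CfsgLib.SchurRee4

open Subgroup
open scoped commutatorElement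

universe u v w

variable {G : Type v} [Group G] {F : Type w} [Field F]

/-- A central series with coordinates and weights. -/
structure Series (U T : Subgroup G) (F : Type w) [Field F] (n : ℕ) where
  /-- The terms. -/
  N : ℕ → Subgroup G
  top : N 0 = U
  bot : N n = ⊥
  le_top : ∀ k, k ≤ n → N k ≤ U
  step : ∀ k < n, N (k + 1) ≤ N k
  comm : ∀ k < n, ⁅U, N k⁆ ≤ N (k + 1)
  /-- Representatives. -/
  elt : ℕ → F → G
  elt_mem : ∀ k < n, ∀ a, elt k a ∈ N k
  /-- Coordinates. -/
  coord : ℕ → G → F
  coord_mul : ∀ k < n, ∀ x ∈ N k, ∀ y ∈ N k, coord k (x * y) = coord k x + coord k y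
  coord_elt : ∀ k < n, ∀ a, coord k (elt k a) = a
  coord_iff : ∀ k < n, ∀ x ∈ N k, coord k x = 0 ↔ x ∈ N (k + 1)
  /-- Weights. -/
  chi : ℕ → G → F
  conj_mem : ∀ t ∈ T, ∀ k ≤ n, ∀ x ∈ N k, t * x * t⁻¹ ∈ N k
  coord_conj : ∀ t ∈ T, ∀ k < n, ∀ x ∈ N k, coord k (t * x * t⁻¹) = chi k t * coord k x

variable {U T : Subgroup G} {n : ℕ}

theorem Series.conj_U (S : Series U T F n) {k : ℕ} (hk : k ≤ n) {x y : G} (hx : x ∈ U)
    (hy : y ∈ S.N k) : x * y * x⁻¹ ∈ S.N k := by
  rcases eq_or_lt_of_le hk with rfl | hlt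
  · rw [S.bot, mem_bot] at hy ⊢
    rw [hy]; group
  · rw [show x * y * x⁻¹ = ⁅x, y⁆ * y by rw [commutatorElement_def]; group]
    exact mul_mem (S.step k hlt (S.comm k hlt (commutator_mem_commutator hx hy))) hy

theorem Series.coord_div (S : Series U T F n) {k : ℕ} (hk : k < n) {x y : G} (hx : x ∈ S.N k)
    (hy : y ∈ S.N k) (h : S.coord k x = S.coord k y) : S.coord k (x⁻¹ * y) = 0 := by
  have e := S.coord_mul k hk x hx (x⁻¹ * y) (mul_mem (inv_mem hx) hy)
  rw [mul_inv_cancel_left, ← h] at e
  exact left_eq_add.1 e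

/-- Every invariant biadditive map on two layers vanishes. -/
def Series.InvZero (S : Series U T F n) (j k : ℕ) : Prop :=
  ∀ {A : Type u} [AddCommGroup A] (B : F →+ F →+ A),
    (∀ t ∈ T, ∀ a c, B (S.chi j t * a) (S.chi k t * c) = B a c) → B = 0

/-- An element of the torus killed by one weight only. -/
theorem invZero_of_indep (S : Series U T F n) {j k : ℕ} {t : G} (ht : t ∈ T) (h1 : S.chi j t = 1)
    (h2 : S.chi k t ≠ 1) : Series.InvZero.{u} S j k := by
  intro A _ B hB
  ext a c
  have h := hB t ht a (c / (S.chi k t - 1))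
  rw [h1, one_mul] at h
  have e : c = S.chi k t * (c / (S.chi k t - 1)) - c / (S.chi k t - 1) := by
    rw [← sub_one_mul, mul_div_cancel₀ _ (sub_ne_zero.2 h2)]
  rw [e, map_sub, h, sub_self]
  rfl

theorem invZero_symm (S : Series U T F n) {j k : ℕ} (h : Series.InvZero.{u} S j k) :
    Series.InvZero.{u} S k j := by
  intro A _ B hB
  have h0 := h B.flip fun t ht a c => hB t ht c a
  ext a c
  exact DFunLike.congr_fun (DFunLike.congr_fun h0 c) a

/-- A layer against itself. -/
theorem invZero_self [Fintype F] (hF : 4 < Fintype.card F) (S : Series U T F n) {j : ℕ}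
    (h : ∀ u : F, u ≠ 0 → ∃ t ∈ T, S.chi j t = u) : Series.InvZero.{u} S j j := by
  intro A _ B hB
  ext a c
  have hdeg : ReeMult.IsDeg 2 fun u => B (u * a) (u * c) :=
    ReeMult.IsDeg.bilin B (ReeMult.isDeg_hom (AddMonoidHom.mulRight a))
      (ReeMult.isDeg_hom (AddMonoidHom.mulRight c))
  refine hdeg.eq_zero (by simp) hF (c := B a c) fun u hu => ?_
  obtain ⟨t, ht, rfl⟩ := h u hu
  exact hB t ht a c

variable {Γ : Type u} [Group Γ]

/-- The kernel meets the derived subgroup of the preimage of `U` trivially. -/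
theorem ker_inf_commutator [Finite Γ] {σ : Γ →* G} (hs : Function.Surjective σ)
    (hc : σ.ker ≤ center Γ) (hA : IsPGroup 2 σ.ker) (S : Series U T F n)
    (hTc : ∀ x ∈ T, ∀ y ∈ T, x * y = y * x) (hT : ¬ 2 ∣ Nat.card T)
    (hne : ∀ k < n, ∃ t ∈ T, S.chi k t ≠ 1)
    (hpair : ∀ j < n, ∀ k < n, Series.InvZero.{u} S j k ∨
      ∀ a c g h, σ g = S.elt j a → σ h = S.elt k c → ⁅g, h⁆ = 1) :
    σ.ker ⊓ ⁅U.comap σ, U.comap σ⁆ = ⊥ := by
  classical
  have hk : ∀ z ∈ σ.ker, ∀ g, g * z = z * g := fun z hz g => mem_center_iff.1 (hc hz) g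
  have hkconj : ∀ z ∈ σ.ker, ∀ g, g * z * g⁻¹ = z := fun z hz g => by
    rw [hk z hz g, mul_inv_cancel_right]
  have main : ∀ d k, k + d = n → ∃ M : Subgroup Γ, σ.ker ⊓ M = ⊥ ∧ M.map σ = S.N k ∧
      ∀ g, σ g ∈ U ∨ σ g ∈ T → ∀ m ∈ M, g * m * g⁻¹ ∈ M := by
    intro d
    induction d with
    | zero =>
      intro k hkn
      obtain rfl : k = n := by omega
      exact ⟨⊥, inf_bot_eq _, by rw [Subgroup.map_bot, S.bot], fun g _ m hm => by
        rw [mem_bot] at hm ⊢; rw [hm]; group⟩
    | succ d ih =>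
      intro k hkd
      have hk' : k < n := by omega
      obtain ⟨M', hint, hmap, hnorm⟩ := ih (k + 1) (by omega)
      have hM'map : ∀ m ∈ M', σ m ∈ S.N (k + 1) := fun m hm => hmap ▸ mem_map_of_mem σ hm
      have hM'1 : ∀ z ∈ σ.ker, z ∈ M' → z = 1 := fun z hz hz' => mem_bot.1 (hint.le ⟨hz, hz'⟩)
      -- the projection to the kernel
      have hdec : ∀ y, σ y ∈ S.N (k + 1) → ∃ z : σ.ker, (z : Γ)⁻¹ * y ∈ M' := by
        intro y hy
        rw [← hmap] at hy
        obtain ⟨m, hm, e⟩ := hy
        refine ⟨⟨y * m⁻¹, by rw [MonoidHom.mem_ker, map_mul, map_inv, e, mul_inv_cancel]⟩, ?_⟩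
        rwa [mul_inv_rev, inv_inv, inv_mul_cancel_right]
      let kp : Γ → σ.ker := fun y =>
        if hy : σ y ∈ S.N (k + 1) then (hdec y hy).choose else 1
      have hkp : ∀ y, σ y ∈ S.N (k + 1) → (kp y : Γ)⁻¹ * y ∈ M' := fun y hy => by
        simp only [kp, dif_pos hy]
        exact (hdec y hy).choose_spec
      have kp_eq : ∀ y (z : σ.ker), σ y ∈ S.N (k + 1) → (z : Γ)⁻¹ * y ∈ M' → kp y = z := by
        intro y z hy hz
        refine Subtype.ext (inv_mul_eq_one.1 (hM'1 _ (mul_mem (inv_mem (kp y).2) z.2) ?_))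
        have := mul_mem (hkp y hy) (inv_mem hz)
        rwa [mul_inv_rev, inv_inv, mul_assoc, mul_inv_cancel_left] at this
      have kp_mul : ∀ y y', σ y ∈ S.N (k + 1) → σ y' ∈ S.N (k + 1) →
          kp (y * y') = kp y * kp y' := fun y y' hy hy' => by
        refine kp_eq _ _ (by rw [map_mul]; exact mul_mem hy hy') ?_
        have h1 := mul_mem (hkp y hy) (hkp y' hy')
        have e : ((kp y * kp y' : σ.ker) : Γ)⁻¹ * (y * y') =
            (kp y : Γ)⁻¹ * y * ((kp y' : Γ)⁻¹ * y') := by
          rw [Subgroup.coe_mul, mul_inv_rev,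
            show (kp y : Γ)⁻¹ * y * ((kp y' : Γ)⁻¹ * y') =
              (kp y : Γ)⁻¹ * (y * (kp y' : Γ)⁻¹) * y' by group,
            hk _ (inv_mem (kp y').2) y, hk _ (inv_mem (kp y').2) ((kp y : Γ)⁻¹) |>.symm]
          group
        rwa [e]
      have kp_conj : ∀ g y, σ g ∈ U ∨ σ g ∈ T → σ y ∈ S.N (k + 1) →
          σ (g * y * g⁻¹) ∈ S.N (k + 1) → kp (g * y * g⁻¹) = kp y := fun g y hg hy hy' => by
        refine kp_eq _ _ hy' ?_
        have e : g * ((kp y : Γ)⁻¹ * y) * g⁻¹ = (kp y : Γ)⁻¹ * (g * y * g⁻¹) := by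
          rw [← mul_assoc g, hk _ (inv_mem (kp y).2) g]; group
        exact e ▸ hnorm g hg _ (hkp y hy)
      letI : CommGroup σ.ker := { (inferInstance : Group σ.ker) with
        mul_comm := fun a b => Subtype.ext (hk _ b.2 a) }
      -- the pairing
      obtain ⟨s, hs'⟩ := hs.hasRightInverse
      have hcm : ∀ x ∈ U, ∀ y ∈ S.N k, σ ⁅s x, s y⁆ ∈ S.N (k + 1) := fun x hx y hy => by
        rw [map_commutatorElement, hs', hs']
        exact S.comm k hk' (commutator_mem_commutator hx hy)
      let b : G → G → Additive σ.ker := fun x y => Additive.ofMul (kp ⁅s x, s y⁆)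
      have hb : ∀ g h, b (σ g) (σ h) = Additive.ofMul (kp ⁅g, h⁆) := fun g h => by
        simp only [b, Schur.commutator_congr hc (hs' (σ g)) (hs' (σ h))]
      have bL : ∀ x ∈ U, ∀ x' ∈ U, ∀ y ∈ S.N k, b (x * x') y = b x y + b x' y := by
        intro x hx x' hx' y hy
        conv_lhs => rw [← hs' x, ← hs' x', ← hs' y, ← map_mul, hb]
        rw [show ⁅s x * s x', s y⁆ = (s x * ⁅s x', s y⁆ * (s x)⁻¹) * ⁅s x, s y⁆ by
          simp only [commutatorElement_def]; group]
        have h1 := hcm x' hx' y hy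
        have h2 : σ (s x * ⁅s x', s y⁆ * (s x)⁻¹) ∈ S.N (k + 1) := by
          rw [map_mul, map_mul, map_inv, hs']
          exact S.conj_U (by omega) hx h1
        rw [kp_mul _ _ h2 (hcm x hx y hy), kp_conj _ _ (Or.inl (by rw [hs']; exact hx)) h1 h2, mul_comm]
        rfl
      have bR : ∀ x ∈ U, ∀ y ∈ S.N k, ∀ y' ∈ S.N k, b x (y * y') = b x y + b x y' := by
        intro x hx y hy y' hy'
        conv_lhs => rw [← hs' x, ← hs' y, ← hs' y', ← map_mul, hb]
        rw [show ⁅s x, s y * s y'⁆ = ⁅s x, s y⁆ * (s y * ⁅s x, s y'⁆ * (s y)⁻¹) by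
          simp only [commutatorElement_def]; group]
        have h1 := hcm x hx y' hy'
        have h2 : σ (s y * ⁅s x, s y'⁆ * (s y)⁻¹) ∈ S.N (k + 1) := by
          rw [map_mul, map_mul, map_inv, hs']
          exact S.conj_U (by omega) (S.le_top k hk'.le hy) h1
        rw [kp_mul _ _ (hcm x hx y hy) h2,
          kp_conj _ _ (Or.inl (by rw [hs']; exact S.le_top k hk'.le hy)) h1 h2]
        rfl
      have bNull : ∀ x ∈ U, ∀ y ∈ S.N (k + 1), b x y = 0 := by
        intro x hx y hy
        obtain ⟨m, hm, e⟩ : y ∈ M'.map σ := hmap.symm ▸ hy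
        conv_lhs => rw [← hs' x, ← e, hb]
        refine ofMul_eq_zero.2 (kp_eq _ _ (by
          rw [map_commutatorElement, hs', e]
          exact S.comm k hk' (commutator_mem_commutator hx (S.step k hk' hy))) ?_)
        rw [Subgroup.coe_one, inv_one, one_mul, commutatorElement_def]
        exact mul_mem (hnorm _ (Or.inl (by rw [hs']; exact hx)) m hm) (inv_mem hm)
      have bInv : ∀ t ∈ T, ∀ x ∈ U, ∀ y ∈ S.N k,
          b (t * x * t⁻¹) (t * y * t⁻¹) = b x y := by
        intro t ht x hx y hy
        have e : ∀ z, t * z * t⁻¹ = σ (s t * s z * (s t)⁻¹) := fun z => by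
          rw [map_mul, map_mul, map_inv, hs', hs']
        have h1 := hcm x hx y hy
        rw [e x, e y, hb, show ⁅s t * s x * (s t)⁻¹, s t * s y * (s t)⁻¹⁆ =
          s t * ⁅s x, s y⁆ * (s t)⁻¹ by simp only [commutatorElement_def]; group,
          kp_conj _ _ (Or.inr (by rw [hs']; exact ht)) h1 (by
            rw [map_mul, map_mul, map_inv, hs']
            exact S.conj_mem t ht (k + 1) (by omega) _ h1)]
      have bzero : ∀ e j, j + e = n → ∀ x ∈ S.N j, ∀ y ∈ S.N k, b x y = 0 := by
        intro e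
        induction e with
        | zero =>
          intro j hj x hx y hy
          obtain rfl : j = n := by omega
          rw [S.bot, mem_bot] at hx
          subst hx
          have := bL 1 (one_mem U) 1 (one_mem U) y hy
          rw [mul_one] at this
          exact left_eq_add.1 this
        | succ e ihe =>
          intro j hj
          have hj' : j < n := by omega
          have hUj : ∀ x ∈ S.N j, x ∈ U := fun x hx => S.le_top j hj'.le hx
          have hUj1 : ∀ x ∈ S.N (j + 1), x ∈ U := fun x hx => hUj x (S.step j hj' hx)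
          have redL : ∀ x ∈ S.N j, ∀ x' ∈ S.N j, S.coord j x = S.coord j x' → ∀ y ∈ S.N k,
              b x y = b x' y := by
            intro x hx x' hx' hxx y hy
            have hd : x'⁻¹ * x ∈ S.N (j + 1) := (S.coord_iff j hj' _
              (mul_mem (inv_mem hx') hx)).1 (S.coord_div hj' hx' hx hxx.symm)
            conv_lhs => rw [← mul_inv_cancel_left x' x]
            rw [bL x' (hUj _ hx') _ (hUj1 _ hd) y hy, ihe (j + 1) (by omega) _ hd y hy, add_zero]
          have redR : ∀ x ∈ S.N j, ∀ y ∈ S.N k, ∀ y' ∈ S.N k, S.coord k y = S.coord k y' →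
              b x y = b x y' := by
            intro x hx y hy y' hy' hyy
            have hd : y'⁻¹ * y ∈ S.N (k + 1) := (S.coord_iff k hk' _
              (mul_mem (inv_mem hy') hy)).1 (S.coord_div hk' hy' hy hyy.symm)
            conv_lhs => rw [← mul_inv_cancel_left y' y]
            rw [bR x (hUj _ hx) y' hy' _ (S.step k hk' hd), bNull x (hUj _ hx) _ hd, add_zero]
          have eM := S.elt_mem j hj'
          have eM' := S.elt_mem k hk'
          let B : F →+ F →+ Additive σ.ker := AddMonoidHom.mk'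
            (fun a => AddMonoidHom.mk' (fun c => b (S.elt j a) (S.elt k c)) fun c c' => by
              rw [← bR _ (hUj _ (eM a)) _ (eM' c) _ (eM' c')]
              exact redR _ (eM a) _ (eM' (c + c')) _ (mul_mem (eM' c) (eM' c')) (by
                rw [S.coord_mul k hk' _ (eM' c) _ (eM' c'), S.coord_elt k hk', S.coord_elt k hk',
                  S.coord_elt k hk']))
            fun a a' => by
              refine AddMonoidHom.ext fun c => ?_
              simp only [AddMonoidHom.mk'_apply, AddMonoidHom.add_apply]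
              rw [← bL _ (hUj _ (eM a)) _ (hUj _ (eM a')) _ (eM' c)]
              exact redL _ (eM (a + a')) _ (mul_mem (eM a) (eM a')) (by
                rw [S.coord_mul j hj' _ (eM a) _ (eM a'), S.coord_elt j hj', S.coord_elt j hj',
                  S.coord_elt j hj']) _ (eM' c)
          have hB : B = 0 := by
            rcases hpair j hj' k hk' with h | h
            · refine h B fun t ht a c => ?_
              show b (S.elt j _) (S.elt k _) = b (S.elt j a) (S.elt k c)
              rw [← bInv t ht _ (hUj _ (eM a)) _ (eM' c)]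
              have m1 := S.conj_mem t ht j hj'.le _ (eM a)
              have m2 := S.conj_mem t ht k hk'.le _ (eM' c)
              rw [redL _ (eM _) _ m1 (by rw [S.coord_elt j hj', S.coord_conj t ht j hj' _ (eM a),
                S.coord_elt j hj']) _ (eM' _)]
              exact redR _ m1 _ (eM' _) _ m2 (by rw [S.coord_elt k hk',
                S.coord_conj t ht k hk' _ (eM' c), S.coord_elt k hk'])
            · refine AddMonoidHom.ext fun a => AddMonoidHom.ext fun c => ?_
              show b (S.elt j a) (S.elt k c) = 0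
              rw [← hs' (S.elt j a), ← hs' (S.elt k c), hb, h a c _ _ (hs' _) (hs' _)]
              refine ofMul_eq_zero.2 (kp_eq _ _ (by rw [map_one]; exact one_mem _) ?_)
              simp [one_mem]
          intro x hx y hy
          rw [redL x hx _ (eM (S.coord j x)) (S.coord_elt j hj' _).symm y hy,
            redR _ (eM _) y hy _ (eM' (S.coord k y)) (S.coord_elt k hk' _).symm]
          exact DFunLike.congr_fun (DFunLike.congr_fun hB (S.coord j x)) (S.coord k y)
      -- commutators land in the complement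
      have hcomM : ∀ g h, σ g ∈ U → σ h ∈ S.N k → ⁅g, h⁆ ∈ M' := by
        intro g h hg hh
        have hy : σ ⁅g, h⁆ ∈ S.N (k + 1) := by
          rw [map_commutatorElement]
          exact S.comm k hk' (commutator_mem_commutator hg hh)
        have h0 := bzero n 0 (by omega) (σ g) (by rw [S.top]; exact hg) (σ h) hh
        rw [hb, ofMul_eq_zero] at h0
        simpa [h0] using hkp _ hy
      -- the quotient by the complement
      set R : Subgroup Γ := (S.N k).comap σ with hR
      have hM'R : ∀ m ∈ M', m ∈ R := fun m hm => mem_comap.2 (S.step k hk' (hM'map m hm))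
      have : (M'.subgroupOf R).Normal := ⟨fun m hm g => by
        rw [mem_subgroupOf] at hm ⊢
        simpa using hnorm g (Or.inl (S.le_top k hk'.le g.2)) _ hm⟩
      let Q := ↥R ⧸ M'.subgroupOf R
      letI : CommGroup Q := { (inferInstance : Group Q) with
        mul_comm := fun a c => by
          obtain ⟨a, rfl⟩ := QuotientGroup.mk_surjective a
          obtain ⟨c, rfl⟩ := QuotientGroup.mk_surjective c
          rw [← commutatorElement_eq_one_iff_mul_comm]
          exact (QuotientGroup.eq_one_iff _).2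
            (mem_subgroupOf.2 (hcomM a c (S.le_top k hk'.le a.2) c.2)) }
      -- averaging over a torus element moving the layer
      obtain ⟨t₀, ht₀, hchi⟩ := hne k hk'
      set τ := s t₀ with hτ
      have hτT : σ τ ∈ T := by rw [hτ, hs']; exact ht₀
      have hTR : ∀ g, σ g ∈ T → ∀ x ∈ R, g * x * g⁻¹ ∈ R := fun g hg x hx => by
        rw [hR, mem_comap, map_mul, map_mul, map_inv]
        exact S.conj_mem _ hg k hk'.le _ hx
      let cj : (g : Γ) → σ g ∈ T → Q →* Q := fun g hg =>
        QuotientGroup.map (M'.subgroupOf R) (M'.subgroupOf R)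
          (MonoidHom.mk' (fun x => (⟨g * x * g⁻¹, hTR g hg _ x.2⟩ : R)) fun x y => Subtype.ext (by
            simp only [Subgroup.coe_mul]; group))
          fun m hm => by
            rw [mem_comap, mem_subgroupOf]
            exact hnorm g (Or.inr hg) _ (mem_subgroupOf.1 hm)
      have cj_mk : ∀ g hg (x : R), cj g hg (x : Q) = ((⟨g * x * g⁻¹, hTR g hg _ x.2⟩ : R) : Q) :=
        fun g hg x => rfl
      let N := orderOf t₀
      have hpowT : ∀ i : ℕ, σ (τ ^ i) ∈ T := fun i => by rw [map_pow]; exact pow_mem hτT _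
      let P : Q →* Q := ∏ i ∈ Finset.range N, cj (τ ^ i) (hpowT i)
      have hPap : ∀ q, P q = ∏ i ∈ Finset.range N, cj (τ ^ i) (hpowT i) q := fun q => by
        simp [P]
      -- coordinates of the quotient
      let cq : Q →* Multiplicative F := QuotientGroup.lift (M'.subgroupOf R)
        (MonoidHom.mk' (fun x : R => Multiplicative.ofAdd (S.coord k (σ x))) fun x y => by
          rw [Subgroup.coe_mul, map_mul, S.coord_mul k hk' _ x.2 _ y.2, ofAdd_add])
        fun m hm => by
          rw [MonoidHom.mem_ker, MonoidHom.mk'_apply, ofAdd_eq_one]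
          exact (S.coord_iff k hk' _ m.2).2 (hM'map _ (mem_subgroupOf.1 hm))
      have cq_mk : ∀ x : R, cq (x : Q) = Multiplicative.ofAdd (S.coord k (σ x)) := fun x => rfl
      have chi_pow : ∀ i : ℕ, ∀ x ∈ S.N k,
          S.coord k (t₀ ^ i * x * (t₀ ^ i)⁻¹) = S.chi k t₀ ^ i * S.coord k x := by
        intro i
        induction i with
        | zero => intro x _; simp
        | succ i ih =>
          intro x hx
          rw [show t₀ ^ (i + 1) * x * (t₀ ^ (i + 1))⁻¹ =
              t₀ * (t₀ ^ i * x * (t₀ ^ i)⁻¹) * t₀⁻¹ by rw [pow_succ']; group,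
            S.coord_conj t₀ ht₀ k hk' _ (S.conj_mem _ (pow_mem ht₀ i) k hk'.le _ hx), ih x hx]
          ring
      have hsum : ∑ i ∈ Finset.range N, S.chi k t₀ ^ i = 0 := by
        have h1 : S.chi k t₀ ^ N = 1 := by
          have := chi_pow N _ (S.elt_mem k hk' 1)
          rwa [pow_orderOf_eq_one, one_mul, inv_one, mul_one, S.coord_elt k hk', mul_one,
            eq_comm] at this
        rw [geom_sum_eq hchi, h1, sub_self, zero_div]
      have hPcq : ∀ x : R, cq (P (x : Q)) = 1 := by
        intro x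
        rw [hPap, map_prod, Finset.prod_congr rfl (g := fun i =>
          Multiplicative.ofAdd (S.chi k t₀ ^ i * S.coord k (σ x))) fun i _ => by
            rw [cj_mk _ (hpowT i), cq_mk]
            refine congrArg _ ?_
            rw [map_mul, map_mul, map_inv, map_pow, hτ, hs', chi_pow i _ x.2]]
        rw [← ofAdd_sum, ← Finset.sum_mul, hsum, zero_mul, ofAdd_zero]
      -- the complement
      let M : Subgroup Γ := (P.comp (QuotientGroup.mk' (M'.subgroupOf R))).ker.map R.subtype
      have hMmem : ∀ x, x ∈ M ↔ ∃ h : x ∈ R, P ((⟨x, h⟩ : R) : Q) = 1 := by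
        intro x
        constructor
        · rintro ⟨y, hy, rfl⟩; exact ⟨y.2, hy⟩
        · rintro ⟨h, hx⟩; exact ⟨⟨x, h⟩, hx, rfl⟩
      have hzN : ∀ (z : Γ) (hz : z ∈ σ.ker) (hzR : z ∈ R),
          P ((⟨z, hzR⟩ : R) : Q) = ((⟨z, hzR⟩ : R) : Q) ^ N := by
        intro z hz hzR
        rw [hPap, Finset.prod_congr rfl (g := fun _ => ((⟨z, hzR⟩ : R) : Q)) fun i _ => by
          rw [cj_mk _ (hpowT i)]; exact congrArg _ (Subtype.ext (hkconj z hz _)), Finset.prod_const,
          Finset.card_range]
      have hNodd : Nat.Coprime 2 N := Nat.prime_two.coprime_iff_not_dvd.2 fun h => hT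
        (h.trans (by
          have : orderOf (⟨t₀, ht₀⟩ : T) = N := (orderOf_coe _).symm
          exact this ▸ orderOf_dvd_natCard _))
      refine ⟨M, ?_, ?_, ?_⟩
      · rw [eq_bot_iff]
        rintro z ⟨hz, hzM⟩
        obtain ⟨hzR, h⟩ := (hMmem z).1 hzM
        rw [hzN z hz hzR, ← QuotientGroup.mk_pow, QuotientGroup.eq_one_iff, mem_subgroupOf] at h
        have hpow : z ^ N = 1 := hM'1 _ (pow_mem hz _) h
        obtain ⟨e, he⟩ := hA ⟨z, hz⟩
        have he' : z ^ 2 ^ e = 1 := congrArg Subtype.val he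
        have := pow_gcd_eq_one.2 ⟨he', hpow⟩
        rw [(hNodd.pow_left e).gcd_eq_one, pow_one] at this
        exact mem_bot.2 this
      · refine le_antisymm (map_le_iff_le_comap.2 fun x hx => ((hMmem x).1 hx).1) ?_
        intro y hy
        have hyR : s y ∈ R := by rw [hR, mem_comap, hs']; exact hy
        obtain ⟨w, hw⟩ := QuotientGroup.mk_surjective (P ((⟨s y, hyR⟩ : R) : Q))
        have hwN : σ (w : Γ) ∈ S.N (k + 1) := by
          refine (S.coord_iff k hk' _ w.2).1 ?_
          have := hPcq ⟨s y, hyR⟩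
          rwa [← hw, cq_mk, ofAdd_eq_one] at this
        set z := kp (w : Γ) with hz
        obtain ⟨e, he⟩ := hA z
        obtain ⟨v, hv⟩ := exists_pow_eq_self_of_coprime (n := N) (x := z)
          ((hNodd.symm.pow_right e).coprime_dvd_right (orderOf_dvd_of_pow_eq_one he))
        have hcR : ((z : Γ) ^ v) ∈ R := by
          rw [hR, mem_comap, map_pow, MonoidHom.mem_ker.1 z.2, one_pow]; exact one_mem _
        refine ⟨s y * ((z : Γ) ^ v)⁻¹, (hMmem _).2 ⟨mul_mem hyR (inv_mem hcR), ?_⟩, ?_⟩
        · show P (((⟨s y, hyR⟩ : R) * (⟨(z : Γ) ^ v, hcR⟩ : R)⁻¹ : R) : Q) = 1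
          rw [QuotientGroup.mk_mul, QuotientGroup.mk_inv, map_mul, map_inv, mul_inv_eq_one, ← hw,
            hzN _ (pow_mem z.2 v) hcR, ← QuotientGroup.mk_pow]
          refine QuotientGroup.eq.2 (mem_subgroupOf.2 ?_)
          have hv' : ((z : Γ) ^ v) ^ N = z := by
            rw [← pow_mul, mul_comm, pow_mul]
            exact congrArg Subtype.val hv
          simp only [Subgroup.coe_mul, Subgroup.coe_inv, Subgroup.coe_pow, hv']
          have hy' := inv_mem (hkp _ hwN)
          rwa [← hz, mul_inv_rev, inv_inv] at hy'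
        · rw [map_mul, map_inv, map_pow, MonoidHom.mem_ker.1 z.2, hs', one_pow, inv_one, mul_one]
      · intro g hg x hx
        obtain ⟨hxR, hPx⟩ := (hMmem x).1 hx
        rcases hg with hg | hg
        · -- conjugation by the unipotent group
          have hc' : ⁅g, x⁆ ∈ M' := hcomM g x hg hxR
          have hcR : ⁅g, x⁆ ∈ R := hM'R _ hc'
          refine (hMmem _).2 ⟨by
            rw [show g * x * g⁻¹ = ⁅g, x⁆ * x by rw [commutatorElement_def]; group]
            exact mul_mem hcR hxR, ?_⟩
          rw [show (⟨g * x * g⁻¹, _⟩ : R) = ⟨⁅g, x⁆, hcR⟩ * ⟨x, hxR⟩ from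
            Subtype.ext (by simp only [Subgroup.coe_mul, commutatorElement_def]; group),
            QuotientGroup.mk_mul, (QuotientGroup.eq_one_iff _).2 (mem_subgroupOf.2 hc'), one_mul,
            hPx]
        · -- conjugation by the torus
          refine (hMmem _).2 ⟨hTR g hg x hxR, ?_⟩
          have hcomm : ∀ i (y : R), cj (τ ^ i) (hpowT i) (cj g hg (y : Q)) =
              cj g hg (cj (τ ^ i) (hpowT i) (y : Q)) := by
            intro i y
            rw [cj_mk _ hg, cj_mk _ (hpowT i), cj_mk _ (hpowT i), cj_mk _ hg]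
            refine congrArg _ (Subtype.ext ?_)
            show τ ^ i * (g * y * g⁻¹) * (τ ^ i)⁻¹ = g * (τ ^ i * y * (τ ^ i)⁻¹) * g⁻¹
            have hzk : ⁅τ ^ i, g⁆ ∈ σ.ker := by
              rw [MonoidHom.mem_ker, map_commutatorElement]
              exact commutatorElement_eq_one_iff_mul_comm.2 (hTc _ (hpowT i) _ hg)
            calc τ ^ i * (g * y * g⁻¹) * (τ ^ i)⁻¹ = ⁅τ ^ i, g⁆ *
                (g * (τ ^ i * y * (τ ^ i)⁻¹) * g⁻¹) * ⁅τ ^ i, g⁆⁻¹ := by
                  simp only [commutatorElement_def]; group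
              _ = _ := by rw [← hk _ hzk, mul_inv_cancel_right]
          rw [← cj_mk g hg ⟨x, hxR⟩]
          have hcomP : P (cj g hg ((⟨x, hxR⟩ : R) : Q)) = cj g hg (P ((⟨x, hxR⟩ : R) : Q)) := by
            rw [hPap, hPap, map_prod]
            exact Finset.prod_congr rfl fun i _ => hcomm i _
          rw [hcomP, hPx, map_one]
  obtain ⟨M, hint, hmap, -⟩ := main n 0 (by omega)
  rw [S.top] at hmap
  rw [eq_bot_iff, ← hint]
  refine le_inf inf_le_left (inf_le_right.trans ?_)
  rw [commutator_le]
  intro g hg h hh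
  obtain ⟨a, ha, ea⟩ : σ g ∈ M.map σ := hmap.symm ▸ hg
  obtain ⟨c, hc', ec⟩ : σ h ∈ M.map σ := hmap.symm ▸ hh
  rw [Schur.commutator_congr hc ea.symm ec.symm]
  exact mul_mem (mul_mem (mul_mem ha hc') (inv_mem ha)) (inv_mem hc')

end CfsgLib.SchurRee4
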