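import Cfsg.Agent.SchurRee4.Two
import Cfsg.Agent.TwistedLie.F4Weyl

/-!
# The torus under the Weyl group, and the rank-one identities
-/

set_option autoImplicit false

namespace CfsgLib.SchurRee4

open Cfsg.Lie CfsgLib.Chevalley CfsgLib.TwistedLie CfsgLib.TwistedLie.F4
open Mod2 (eq2B eq2_sound ew ew_cons ew_nil)

local notation "S" => sysF4

universe u

/-- A map of the dihedral group from two involutions. -/
theorem exists_dihedral_hom {H : Type u} [Group H] {a b : H} (ha : a * a = 1) (hb : b * b = 1)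
    (h8 : (a * b) ^ 8 = 1) : ∃ ψ : DihedralGroup 8 →* H, ψ (.sr 0) = a ∧ ψ (.sr 1) = b := by
  let g : ZMod 8 → H := fun i => (a * b) ^ i.val
  have hg : ∀ i j, g (i + j) = g i * g j := fun i j => by
    show (a * b) ^ (i + j).val = _
    rw [ZMod.val_add, ← pow_eq_pow_mod _ h8, pow_add]
  have g0 : g 0 = 1 := pow_zero _
  have hneg : ∀ i, g (-i) = (g i)⁻¹ := fun i =>
    eq_inv_of_mul_eq_one_left (by rw [← hg, neg_add_cancel, g0])
  have hai : a⁻¹ = a := inv_eq_of_mul_eq_one_left ha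
  have key : ∀ i, g i * a = a * g (-i) := fun i => by
    have h1 : a * g i * a⁻¹ = g (-i) := by
      rw [hneg]
      show a * (a * b) ^ i.val * a⁻¹ = ((a * b) ^ i.val)⁻¹
      rw [← conj_pow, ← inv_pow]
      congr 1
      rw [← mul_assoc a a, ha, one_mul, mul_inv_rev, inv_eq_of_mul_eq_one_left hb]
    calc g i * a = a * (a * g i * a) := by simp only [← mul_assoc, ha, one_mul]
      _ = _ := by rw [← h1, hai]
  let f : DihedralGroup 8 → H := fun x => match x with
    | .r i => g i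
    | .sr i => a * g i
  have hf : ∀ x y, f (x * y) = f x * f y := by
    rintro (i | i) (j | j)
    · exact hg i j
    · show a * g (j - i) = g i * (a * g j)
      rw [← mul_assoc, key, sub_eq_neg_add, hg, mul_assoc]
    · show a * g (i + j) = a * g i * g j
      rw [hg, mul_assoc]
    · show g (j - i) = a * g i * (a * g j)
      rw [mul_assoc, ← mul_assoc (g i), key, ← mul_assoc, ← mul_assoc, ha, one_mul, sub_eq_neg_add,
        hg]
  refine ⟨MonoidHom.mk' f hf, ?_, ?_⟩
  · show a * g 0 = a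
    rw [g0, mul_one]
  · show a * (a * b) ^ (1 : ZMod 8).val = b
    rw [show (1 : ZMod 8).val = 1 from rfl, pow_one, ← mul_assoc, ha, one_mul]

/-- A word of root elements with all coefficients one. -/
def onesW (l : List ℕ) : List (ℕ × List (ℤ × ℕ × ℕ)) := l.map fun r => (r, [(1, 0, 0)])

/-- The letters of the two reflections. -/
def nLetters : Fin 2 → List ℕ :=
  ![[27, 20, 27, 25, 22, 25, 27, 20, 27, 25, 22, 25], [33, 14, 33, 24, 23, 24]]

theorem rank_idents :
    (∀ i : Fin 2, eq2B chevF4 (onesW (nLetters i ++ nLetters i)) [] = true) ∧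
    eq2B chevF4 (onesW (nLetters 1 ++ [33, 24] ++ nLetters 1))
      (onesW ([33, 24] ++ nLetters 1 ++ [33, 24])) = true ∧
    eq2B chevF4 (onesW (nLetters 0 ++ [28, 30] ++ nLetters 0))
      (onesW ([27, 25, 30] ++ nLetters 0 ++ [27, 25, 28])) = true := by
  refine ⟨?_, ?_, ?_⟩ <;> decide +kernel

variable {K : Type*} [Field K]

theorem prod_ones [CharP K 2] {l l' : List ℕ} (h : eq2B chevF4 (onesW l) (onesW l') = true) :
    (l.map fun r => Sys.xG S K r (1 : K)).prod = (l'.map fun r => Sys.xG S K r (1 : K)).prod := by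
  have h' := eq2_sound S h (1 : K) 1
  have e : ∀ l : List ℕ, ew S (1 : K) 1 (onesW l) = (l.map fun r => Sys.xG S K r (1 : K)).prod := by
    intro l
    induction l with
    | nil => simp [onesW, ew_nil]
    | cons r l ih =>
      simp only [onesW, List.map_cons, ew_cons, List.prod_cons] at ih ⊢
      rw [ih]
      simp [pev]
  rwa [e, e] at h'

variable [Fintype K] {m : ℕ} (hK : Fintype.card K = 2 ^ (2 * m + 1))
include hK

local notation "θ" => 2 ^ m

/-- The reflection. -/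
noncomputable def refl (K : Type*) [Field K] (i : Fin 2) : GL chevF4.Idx K :=
  (Sys.wN S K (blkF i) : GL chevF4.Idx K)

theorem refl_letters (i : Fin 2) :
    refl K i = ((nLetters i).map fun r => Sys.xG S K r (1 : K)).prod := by
  haveI := charTwo hK
  have e : ∀ a, Sys.nG S K a 1 = Sys.xG S K a 1 *
      Sys.xG S K (chevF4.neg a) 1 * Sys.xG S K a 1 := fun a => by
    rw [Sys.nG_eq, inv_one, CharTwo.neg_eq]
  obtain ⟨s0, s1, s2, s3⟩ := simple_eq
  obtain ⟨m0, m1, m2, m3⟩ := (by decide +kernel : chevF4.neg 33 = 14 ∧ chevF4.neg 27 = 20 ∧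
    chevF4.neg 25 = 22 ∧ chevF4.neg 24 = 23)
  rw [refl, wN_blk]
  fin_cases i
  · simp [nL, blkN, nLetters, e, s1, s2, m1, m2, mul_assoc]
  · simp [nL, blkN, nLetters, e, s0, s3, m0, m3, mul_assoc]

theorem refl_sq (i : Fin 2) : refl K i * refl K i = 1 := by
  haveI := charTwo hK
  have h := prod_ones (K := K) (l := nLetters i ++ nLetters i) (l' := []) (rank_idents.1 i)
  rwa [List.map_append, List.prod_append, ← refl_letters hK] at h

/-- The rank-one identity of the class of two roots. -/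
theorem pair_ident : refl K 1 * pairEl m (1 : K) * refl K 1 =
    pairEl m (1 : K) * refl K 1 * pairEl m (1 : K) := by
  haveI := charTwo hK
  have h := prod_ones (K := K) rank_idents.2.1
  simp only [List.map_append, List.prod_append, ← refl_letters hK] at h
  simpa [pairEl, mul_assoc] using h

/-- The rank-one identity at a central element of the class of four roots. -/
theorem quad_ident : refl K 0 * quadEl m 27 25 28 30 (0 : K) 1 * refl K 0 =
    quadEl m 27 25 28 30 (1 : K) 1 * refl K 0 * (quadEl m 27 25 28 30 (1 : K) 1)⁻¹ := by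
  haveI := charTwo hK
  have h := prod_ones (K := K) rank_idents.2.2
  simp only [List.map_append, List.prod_append, ← refl_letters hK] at h
  have h2 : (1 : K) + 1 = 0 := CharTwo.add_self_eq_zero 1
  rw [TwoGenTwisted.F4.quad_inv hK, quad_zero hK]
  simpa [quadEl, h2, Sys.xG_zero, mul_assoc,
    zero_pow (mul_ne_zero two_ne_zero (pow_ne_zero m two_ne_zero))] using h

theorem refl_coord : ∀ L : List ℕ, (∀ a ∈ L, a = 1 ∨ a = 2) → ∀ c : ℕ → Kˣ, ∃ d : ℕ → Kˣ,
    nL S K L * tor chevF4 K c * (nL S K L)⁻¹ = tor chevF4 K d ∧ d 0 = c 0 := by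
  intro L
  induction L with
  | nil => intro _ c; exact ⟨c, by simp [nL], rfl⟩
  | cons a L ih =>
    intro hL c
    obtain ⟨d, hd, h0⟩ := ih (fun x hx => hL x (List.mem_cons_of_mem _ hx)) c
    have ha := hL a (List.mem_cons_self ..)
    refine ⟨d * Pi.mulSingle a (torusVal chevF4 d (chevF4.simple a))⁻¹, ?_, ?_⟩
    · rw [← nG_tor4 a (by omega), ← hd, nL_cons]
      group
    · rw [Pi.mul_apply, Pi.mulSingle_eq_of_ne (by omega), mul_one, h0]

/-- Elements inverted by the first reflection lie in a cyclic subgroup. -/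
theorem inverted_cyclic : ∃ g ∈ TT hK, ∀ t ∈ TT hK,
    refl K 0 * t * refl K 0 = t⁻¹ → ∃ i : ℤ, g ^ i = t := by
  obtain ⟨k, hk⟩ := IsCyclic.exists_generator (α := Kˣ)
  refine ⟨tor chevF4 K (cv m 1 k), (mem_TT hK).2 ⟨1, k, rfl⟩, fun t ht h => ?_⟩
  obtain ⟨a, b, rfl⟩ := (mem_TT hK).1 ht
  obtain ⟨d, hd, h0⟩ := refl_coord hK (blkN 0) (by decide +kernel) (cv m a b)
  rw [← wN_blk, ← refl, inv_eq_of_mul_eq_one_left (refl_sq hK 0), h, ← map_inv] at hd
  have h1 := tor_inj hd 0 (by omega)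
  have h2 : cv m a b 0 = a := rfl
  rw [Pi.inv_apply, h0, h2] at h1
  have ha : a = 1 := units_odd hK (e := 1) (by rw [pow_one, sq, ← eq_inv_iff_mul_eq_one, h1])
  subst ha
  obtain ⟨i, rfl⟩ := Subgroup.mem_zpowers_iff.1 (hk b)
  refine ⟨i, ?_⟩
  rw [← map_zpow]
  refine tor_congr fun j hj => ?_
  rw [Pi.pow_apply]
  interval_cases j <;> simp [cv, four, ← zpow_natCast, ← zpow_mul, mul_comm]

/-- Elements fixed by the first reflection lie in a cyclic subgroup. -/
theorem fixed_cyclic : ∃ g ∈ TT hK, ∀ t ∈ TT hK,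
    refl K 0 * t * refl K 0 = t → ∃ i : ℤ, g ^ i = t := by
  obtain ⟨k, hk⟩ := IsCyclic.exists_generator (α := Kˣ)
  set f : Kˣ → Kˣ := fun b => (b ^ (-2 + 2 * ((2 * θ : ℕ) : ℤ))) ^ θ with hf
  refine ⟨tor chevF4 K (cv m (f k) k), (mem_TT hK).2 ⟨_, k, rfl⟩, fun t ht h => ?_⟩
  obtain ⟨a, b, rfl⟩ := (mem_TT hK).1 ht
  have hconj : nL S K (blkN 0) * tor chevF4 K (cv m a b) * (nL S K (blkN 0))⁻¹ =
      tor chevF4 K (cv m a b) := by
    rw [← wN_blk, ← refl, inv_eq_of_mul_eq_one_left (refl_sq hK 0), h]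
  have h1 := TwoGenTwisted.torusVal_conj S (L := blkN 0) (blkN_lt 0) hconj
    (show 25 < chevF4.nroots by decide)
  rw [show wL chevF4 (blkN 0) 25 = 22 by decide +kernel, torusVal_four, torusVal_four] at h1
  obtain ⟨p0, p1, p2, p3, q0, q1, q2, q3⟩ := (by decide +kernel :
    chevF4.cartan 0 25 = 0 ∧ chevF4.cartan 1 25 = -2 ∧ chevF4.cartan 2 25 = 2 ∧
    chevF4.cartan 3 25 = -1 ∧ chevF4.cartan 0 22 = 0 ∧ chevF4.cartan 1 22 = 2 ∧
    chevF4.cartan 2 22 = -2 ∧ chevF4.cartan 3 22 = 1)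
  set v : Kˣ := b ^ (-2 + 2 * ((2 * θ : ℕ) : ℤ)) * (a ^ (2 * θ))⁻¹ with hv
  have e25 : cv m a b 0 ^ (0 : ℤ) * cv m a b 1 ^ (-2 : ℤ) * cv m a b 2 ^ (2 : ℤ) *
      cv m a b 3 ^ (-1 : ℤ) = v := by
    show a ^ (0 : ℤ) * b ^ (-2 : ℤ) * (b ^ (2 * θ)) ^ (2 : ℤ) * (a ^ (2 * θ)) ^ (-1 : ℤ) = _
    rw [zpow_zero, one_mul, zpow_neg_one, hv, zpow_add, mul_comm (2 : ℤ), zpow_mul, zpow_natCast]
  have e22 : cv m a b 0 ^ (0 : ℤ) * cv m a b 1 ^ (2 : ℤ) * cv m a b 2 ^ (-2 : ℤ) *
      cv m a b 3 ^ (1 : ℤ) = v⁻¹ := by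
    rw [← e25]
    simp only [mul_inv, zpow_zero, one_mul, ← zpow_neg, neg_neg]
  rw [p0, p1, p2, p3, q0, q1, q2, q3, e25, e22] at h1
  have hv1 : v = 1 := units_odd hK (e := 1) (by rw [pow_one, sq, ← eq_inv_iff_mul_eq_one]; exact h1.symm)
  have hq : ∀ x : Kˣ, x ^ (2 * θ * θ) = x := fun x => Units.ext (by simpa using sq_pow hK (x : K))
  have ha : a = f b := by
    rw [hv, mul_inv_eq_one] at hv1
    rw [hf]
    simp only
    rw [hv1, ← pow_mul, hq]
  obtain ⟨i, rfl⟩ := Subgroup.mem_zpowers_iff.1 (hk b)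
  refine ⟨i, ?_⟩
  rw [← map_zpow, ha]
  refine tor_congr fun j hj => ?_
  rw [Pi.pow_apply]
  interval_cases j <;>
    simp [cv, four, hf, ← zpow_natCast, ← zpow_mul, mul_comm, mul_left_comm]

theorem neg_roots : ∀ r ∈ ([33, 27, 25, 24] : List ℕ),
    ∀ c : ℕ → Kˣ, torusVal chevF4 c (wL chevF4 (List.replicate 4 TwoGenTwisted.F4.LW).flatten r) =
      (torusVal chevF4 c r)⁻¹ := by
  intro r hr c
  have e : ∀ r ∈ ([33, 27, 25, 24] : List ℕ), ∀ j < 4,
      chevF4.cartan j (wL chevF4 (List.replicate 4 TwoGenTwisted.F4.LW).flatten r) =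
        -chevF4.cartan j r := by decide +kernel
  rw [torusVal_four, torusVal_four, e r hr 0 (by omega), e r hr 1 (by omega), e r hr 2 (by omega),
    e r hr 3 (by omega)]
  simp only [zpow_neg, mul_inv]

/-- The rotation fixes no torus element. -/
theorem rot_fix {t : GL chevF4.Idx K} (ht : t ∈ TT hK)
    (h : refl K 0 * refl K 1 * t = t * (refl K 0 * refl K 1)) : t = 1 := by
  obtain ⟨a, b, rfl⟩ := (mem_TT hK).1 ht
  set c := cv m a b
  have e : refl K 0 * refl K 1 = nL S K TwoGenTwisted.F4.LW := by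
    rw [refl, refl, wN_blk, wN_blk, show TwoGenTwisted.F4.LW = blkN 0 ++ blkN 1 from rfl, nL_append]
  rw [e] at h
  have h4 : ∀ j, Commute (nL S K (List.replicate j TwoGenTwisted.F4.LW).flatten) (tor chevF4 K c) := by
    intro j
    induction j with
    | zero => simp [nL]
    | succ j ih =>
      rw [List.replicate_succ, List.flatten_cons, nL_append]
      exact Commute.mul_left h ih
  have hc : nL S K (List.replicate 4 TwoGenTwisted.F4.LW).flatten * tor chevF4 K c *
      (nL S K (List.replicate 4 TwoGenTwisted.F4.LW).flatten)⁻¹ = tor chevF4 K c := by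
    rw [(h4 4).eq, mul_inv_cancel_right]
  have hsimple : ∀ i < 4, torusVal chevF4 c (chevF4.simple i) = 1 := by
    intro i hi
    have hr : chevF4.simple i ∈ ([33, 27, 25, 24] : List ℕ) :=
      (by decide +kernel : ∀ i < 4, chevF4.simple i ∈ ([33, 27, 25, 24] : List ℕ)) i hi
    have hlt : chevF4.simple i < chevF4.nroots :=
      (by decide +kernel : ∀ i < 4, chevF4.simple i < chevF4.nroots) i hi
    have h1 := TwoGenTwisted.torusVal_conj S
      (L := (List.replicate 4 TwoGenTwisted.F4.LW).flatten) (TwoGenTwisted.F4.rep_lt 4) hc hlt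
    rw [neg_roots hK _ hr] at h1
    exact units_odd hK (e := 1) (by rw [pow_one, sq, ← eq_inv_iff_mul_eq_one, h1])
  exact tor_eq_one_of_simple S K c hsimple

end CfsgLib.SchurRee4
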