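import Cfsg.Agent.TwistedLie.F4Tw
import Cfsg.Agent.Chevalley.InvCoord
import Cfsg.Agent.Chevalley.CentralizerFix

/-!
# The twelve layers of the positive roots of `F₄` under the exceptional twist
-/

set_option autoImplicit false

namespace CfsgLib.SchurRee4

open Cfsg.Lie CfsgLib.Chevalley CfsgLib.TwistedLie.F4

local notation "S" => sysF4

/-- The layers: a coordinate root and its partner. -/
def lays : List (ℕ × ℕ) := [(25, 27), (28, 30), (24, 33), (26, 34), (41, 29), (31, 35), (32, 37),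
  (36, 42), (43, 38), (45, 39), (40, 46), (44, 47)]

/-- The coordinate root of a layer. -/
def rep (k : ℕ) : ℕ := (lays.getD k (0, 0)).1

/-- The roots of the layers from `k` on. -/
def upL (k : ℕ) : List ℕ := (lays.drop k).flatMap fun p => [p.1, p.2]

/-- The roots of the layers from `k` on other than the coordinate root. -/
def upR (k : ℕ) : List ℕ := (upL k).filter fun r => r != rep k

/-- The roots of the layers from `k` on other than the partner of the coordinate root. -/
def upQ (k : ℕ) : List ℕ := (upL k).filter fun r => r != rr (rep k)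

/-- The coordinates of a positive root in one number. -/
def codes : List ℕ := [4096, 256, 4352, 16, 272, 4368, 288, 4384, 4640, 1, 17, 273, 4369, 289, 4385, 4641, 4657, 290, 4386, 4642, 4658, 4674, 4930, 9026]

theorem codes_eq : ∀ k : Fin 24, (codes.getD k 0 : ℤ) = tabF4.coord 4 0 (24 + k) +
    16 * tabF4.coord 4 1 (24 + k) + 256 * tabF4.coord 4 2 (24 + k) +
    4096 * tabF4.coord 4 3 (24 + k) := by decide +kernel

/-- Check: no positive root outside `L` is a small combination of two in `L`. -/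
def chkClosedL (L : List ℕ) : Bool :=
  (List.range 24).all fun k => L.contains (24 + k) || L.all fun r => L.all fun s =>
    [1, 2, 3, 4].all fun i => [1, 2, 3, 4].all fun j =>
      codes.getD k 0 != i * codes.getD (r - 24) 0 + j * codes.getD (s - 24) 0

theorem closed_of_chk {L : List ℕ} (h : chkClosedL L = true) :
    Sys.Closed S {r | r ∈ L} := by
  intro r hr s hs hrp hsp k hk i j hi hj hv
  obtain ⟨hr1, hr2⟩ := (Sys.pos_iff S r).mp hrp
  obtain ⟨hs1, hs2⟩ := (Sys.pos_iff S s).mp hsp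
  simp only [show chevF4.nroots = 48 from rfl] at hr1 hr2 hs1 hs2 hk
  obtain ⟨a, ha, har⟩ := Sys.exists_vec_pos S (r := r) hr2 hr1
  obtain ⟨b, hb, hbs⟩ := Sys.exists_vec_pos S (r := s) hs2 hs1
  have hpos : ∀ q < 48, 24 ≤ q → ∀ c : Fin 4, 0 ≤ tabF4.coord 4 c q ∧ tabF4.coord 4 c q ≤ 4 := by
    decide +kernel
  have v0 : ∀ c < 4, ∀ q, Sys.vec S c q = tabF4.coord 4 c q := fun _ _ _ => rfl
  have hk24 : 24 ≤ k := by
    refine Sys.pos_of_vec S (k := k) hk ha ?_
    rw [hv a ha]
    exact add_pos_of_pos_of_nonneg (mul_pos (by omega) har)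
      (mul_nonneg (by omega) (Sys.vec_pos S s hs2 hs1 a ha))
  have bi : i ≤ 4 := by
    have h1 := hv a ha
    rw [v0 a ha, v0 a ha, v0 a ha] at h1
    have h2 := (hpos k hk hk24 ⟨a, ha⟩).2
    have h3 := (hpos s hs2 hs1 ⟨a, ha⟩).1
    rw [v0 a ha] at har
    have : (i : ℤ) ≤ i * tabF4.coord 4 a r := le_mul_of_one_le_right (by omega) (by omega)
    have : (0 : ℤ) ≤ j * tabF4.coord 4 a s := mul_nonneg (by omega) h3
    simp only at h2
    omega
  have bj : j ≤ 4 := by
    have h1 := hv b hb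
    rw [v0 b hb, v0 b hb, v0 b hb] at h1
    have h2 := (hpos k hk hk24 ⟨b, hb⟩).2
    have h3 := (hpos r hr2 hr1 ⟨b, hb⟩).1
    rw [v0 b hb] at hbs
    have : (j : ℤ) ≤ j * tabF4.coord 4 b s := le_mul_of_one_le_right (by omega) (by omega)
    have : (0 : ℤ) ≤ i * tabF4.coord 4 b r := mul_nonneg (by omega) h3
    simp only at h2
    omega
  by_contra hkL
  have e : ∀ q, 24 ≤ q → q < 48 → (codes.getD (q - 24) 0 : ℤ) = tabF4.coord 4 0 q +
      16 * tabF4.coord 4 1 q + 256 * tabF4.coord 4 2 q + 4096 * tabF4.coord 4 3 q := fun q h1 h2 => by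
    have := codes_eq ⟨q - 24, by omega⟩
    simpa [show 24 + (q - 24) = q by omega] using this
  have hne : codes.getD (k - 24) 0 ≠ i * codes.getD (r - 24) 0 + j * codes.getD (s - 24) 0 := by
    simp only [chkClosedL, List.all_eq_true, Bool.or_eq_true, List.contains_iff_mem,
      List.mem_range, bne_iff_ne] at h
    rcases h (k - 24) (by omega) with h1 | h1
    · exact absurd (by rwa [show 24 + (k - 24) = k by omega] at h1) hkL
    · exact h1 r hr s hs i (by simp; omega) j (by simp; omega)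
  refine hne ?_
  have h0 := hv 0 (by decide)
  have h1 := hv 1 (by decide)
  have h2 := hv 2 (by decide)
  have h3 := hv 3 (by decide)
  simp only [v0 0 (by decide), v0 1 (by decide), v0 2 (by decide), v0 3 (by decide)] at h0 h1 h2 h3
  zify
  rw [e k hk24 hk, e r hr1 hr2, e s hs1 hs2, h0, h1, h2, h3]
  ring

theorem chk_upL : ∀ k : Fin 13, chkClosedL (upL k) = true ∧ chkClosedL (upR k) = true ∧
    chkClosedL (upQ k) = true := by
  decide +kernel

theorem chk_upL_comm : ∀ k : Fin 13,
    chkModComm chevF4 (upL k) (upL k) (List.range' 24 24) = true ∧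
    chkModComm chevF4 (upL k) (upL (k + 1)) (List.range' 24 24) = true := by
  decide +kernel

theorem upL_facts : ∀ k : Fin 13, (∀ r ∈ upL k, 24 ≤ r ∧ r < 48) ∧
    (∀ r ∈ upL k, rr r ∈ upL k) ∧ (∀ r ∈ upR k, r ∈ upL k ∧ r ≠ rep k) ∧
    (∀ r ∈ upL k, r ≠ rep k → r ∈ upR k) ∧
    (∀ r ∈ upR k, rr r ∈ upQ k) ∧ (∀ r ∈ upR k, r ∈ upQ k → r ∈ upL (k + 1)) ∧
    (∀ r ∈ upL (k + 1), r ∈ upR k) := by
  decide +kernel

theorem rep_facts : ∀ k : Fin 12, rep k ∈ upL k ∧ rep k ∉ upL (k + 1) ∧ 24 ≤ rep k ∧ rep k < 48 := by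
  decide +kernel

theorem upL_zero : ∀ r < 48, 24 ≤ r → r ∈ upL 0 := by decide +kernel

end CfsgLib.SchurRee4
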