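import Cfsg.Agent.SchurRee4.Layers
import Cfsg.Agent.SchurRee4.Elts
import Cfsg.Agent.TwistedLie.F4Facts

/-!
# The central series of the Sylow two-subgroup of `²F₄(q)`
-/

set_option autoImplicit false

namespace CfsgLib.SchurRee4

open Cfsg.Lie CfsgLib.Chevalley CfsgLib.TwistedLie CfsgLib.TwistedLie.F4
open scoped commutatorElement

local notation "S" => sysF4

variable {K : Type*} [Field K]

theorem coord_wG {k : ℕ} (hk : k < 12) : ∀ (R : List ℕ) (V : List K), R.length = V.length →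
    (∀ r ∈ R, r ∈ upL k) → R.count (rep k) ≤ 1 →
    Sys.Coord S K {r | r ∈ upL k} (rep k) (Sys.wG S K (R.zip V)) (V.getD (R.idxOf (rep k)) 0) := by
  classical
  have hup : ∀ r ∈ upL k, 24 ≤ r ∧ r < 48 := (upL_facts ⟨k, by omega⟩).1
  intro R
  induction R with
  | nil =>
    intro V hV _ _
    obtain rfl : V = [] := List.length_eq_zero_iff.1 hV.symm
    simpa [Sys.wG] using Sys.coord_one S (F := K) {r | r ∈ upL k} (rep k)
  | cons r R ih =>
    intro V hV hR hc
    obtain ⟨v, V, rfl⟩ := List.exists_cons_of_length_pos (l := V) (by simp [← hV])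
    have hr := hR r (List.mem_cons_self ..)
    have h2 := ih V (by simpa using hV) (fun x hx => hR x (List.mem_cons_of_mem _ hx))
      (le_trans List.count_le_count_cons hc)
    have h1 := Sys.coord_xG S (F := K) (P := {r | r ∈ upL k}) (u := rep k) (w := r) hr (hup r hr) v
    have h3 := Sys.coord_mul S (closed_of_chk (chk_upL ⟨k, by omega⟩).1)
      (show rep k ∈ {r | r ∈ upL k} from (rep_facts ⟨k, hk⟩).1)
      ⟨(rep_facts ⟨k, hk⟩).2.2.1, (rep_facts ⟨k, hk⟩).2.2.2⟩ h1 h2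
    convert h3 using 1
    · simp [Sys.wG]
    · by_cases e : r = rep k
      · subst e
        rw [List.idxOf_cons_self, List.getD_cons_zero, if_pos rfl]
        have hn : rep k ∉ R := fun h => by
          rw [List.count_cons_self] at hc
          have := List.count_pos_iff.2 h
          omega
        rw [List.idxOf_eq_length hn]
        simp only [List.length_cons, Nat.succ.injEq] at hV
        rw [hV, List.getD_eq_default _ _ le_rfl, add_zero]
      · rw [List.idxOf_cons_ne _ e, List.getD_cons_succ, if_neg e, zero_add]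

theorem upL_twelve {k : ℕ} (hk : 12 ≤ k) : upL k = [] := by
  rw [upL, List.drop_eq_nil_of_le (show lays.length ≤ k from hk)]
  rfl

open Classical in
/-- The coordinate of a layer. -/
noncomputable def co (k : ℕ) (x : GL chevF4.Idx K) : K :=
  if h : ∃ c, Sys.Coord S K {r | r ∈ upL k} (rep k) x c then h.choose else 0

theorem co_eq {k : ℕ} (hk : k < 12) {x : GL chevF4.Idx K} {c : K}
    (h : Sys.Coord S K {r | r ∈ upL k} (rep k) x c) : co k x = c := by
  have he : ∃ c, Sys.Coord S K {r | r ∈ upL k} (rep k) x c := ⟨c, h⟩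
  have hd : ({r | r ∈ upL k} \ {rep k} : Set ℕ) = {r | r ∈ upR k} := by
    ext r
    obtain ⟨-, -, f1, f2, -⟩ := upL_facts ⟨k, by omega⟩
    exact ⟨fun h => f2 r h.1 h.2, fun h => f1 r h⟩
  rw [co, dif_pos he]
  exact Sys.coord_unique S (by rw [hd]; exact closed_of_chk (chk_upL ⟨k, by omega⟩).2.1)
    (rep_facts ⟨k, hk⟩).2.2.2 he.choose_spec h

theorem co_spec {k : ℕ} (hk : k < 12) {x : GL chevF4.Idx K}
    (hx : x ∈ uSub chevF4 K {r | r ∈ upL k}) :
    Sys.Coord S K {r | r ∈ upL k} (rep k) x (co k x) := by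
  obtain ⟨c, hc⟩ := Sys.exists_coord S (closed_of_chk (chk_upL ⟨k, by omega⟩).1)
    (show rep k ∈ {r | r ∈ upL k} from (rep_facts ⟨k, hk⟩).1)
    ⟨(rep_facts ⟨k, hk⟩).2.2.1, (rep_facts ⟨k, hk⟩).2.2.2⟩ hx
  rwa [co_eq hk hc]

theorem co_tor {k : ℕ} (hk : k < 12) (c : ℕ → Kˣ) {x : GL chevF4.Idx K}
    (hx : x ∈ uSub chevF4 K {r | r ∈ upL k}) :
    co k (tor chevF4 K c * x * (tor chevF4 K c)⁻¹) = (torusVal chevF4 c (rep k) : K) * co k x := by
  refine co_eq hk ?_
  have h := Sys.tor_conj_uSub S K c (co_spec hk hx)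
  unfold Sys.Coord
  rw [← Sys.tor_conj S K c (show rep k < chevF4.nroots from (rep_facts ⟨k, hk⟩).2.2.2)]
  convert h using 1
  group

theorem comm_mem [CharP K 2] {k : ℕ} (hk : k < 12) {u y : GL chevF4.Idx K}
    (hu : u ∈ chevF4.posUnipotent K) (hy : y ∈ uSub chevF4 K {r | r ∈ upL k}) :
    ⁅u, y⁆ ∈ uSub chevF4 K {r | r ∈ upL (k + 1)} := by
  set W := uSub chevF4 K {r | r ∈ upL (k + 1)}
  have hA : ∀ r, chevF4.IsPosRoot r → r ∈ List.range' 24 24 := fun r hr => by
    obtain ⟨h1, h2⟩ := (Sys.pos_iff S r).mp hr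
    rw [List.mem_range'_1]
    exact ⟨h1, h2⟩
  have h1 := (chk_upL_comm ⟨k, by omega⟩).2
  have h2 := (chk_upL_comm ⟨k + 1, by omega⟩).1
  have hW := (upL_facts ⟨k + 1, by omega⟩).1
  have hmod := fun {u : GL chevF4.Idx K} (hu : u ∈ chevF4.posUnipotent K) =>
    Sys.pos_conj_mod S K h1 h2 hA hW hu
  have key : ∀ y ∈ uSub chevF4 K {r | r ∈ upL k}, y⁻¹ * (u * y * u⁻¹) ∈ W := by
    intro y hy
    unfold uSub at hy
    induction hy using Subgroup.closure_induction with
    | mem x hx =>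
      obtain ⟨r, t, ⟨hr, hrp⟩, hx⟩ := hx
      rw [Sys.eq_xG S K hx]
      exact (hmod hu).2 r hr t
    | one => simp
    | mul a b _ hb ha' hb' =>
      have hbU : b ∈ chevF4.posUnipotent K := uSub_le_posUnipotent K _ hb
      have h := mul_mem ((hmod (inv_mem hbU)).1 _ ha') hb'
      convert h using 1
      group
    | inv a ha ha' =>
      have haU : a ∈ chevF4.posUnipotent K := uSub_le_posUnipotent K _ ha
      have h := (hmod haU).1 _ (inv_mem ha')
      convert h using 1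
      group
  have h := (hmod (uSub_le_posUnipotent K _ hy)).1 _ (key y hy)
  convert h using 1
  rw [commutatorElement_def]
  group

variable [Fintype K] {m : ℕ} (hK : Fintype.card K = 2 ^ (2 * m + 1))
include hK

theorem sigma_image {P Q : Set ℕ} (hP : ∀ r ∈ P, 24 ≤ r → r < 48 → rr r ∈ Q)
    {u : GL chevF4.Idx K} (hu : u ∈ uSub chevF4 K P) : sigma hK u ∈ uSub chevF4 K Q := by
  let M : Subgroup (GL chevF4.Idx K) :=
    { carrier := {g | g ∈ chevF4.group K ∧ sigma hK g ∈ uSub chevF4 K Q}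
      one_mem' := ⟨one_mem _, by rw [sigma_one hK]; exact one_mem _⟩
      mul_mem' := fun {a b} ha hb =>
        ⟨mul_mem ha.1 hb.1, by rw [sigma_mul hK ha.1 hb.1]; exact mul_mem ha.2 hb.2⟩
      inv_mem' := fun {a} ha =>
        ⟨inv_mem ha.1, by rw [sigma_inv hK ha.1]; exact inv_mem ha.2⟩ }
  have hle : uSub chevF4 K P ≤ M := by
    refine Sys.uSub_le S K fun r hr h1 h2 t => ⟨Sys.xG_mem S K h2 t, ?_⟩
    rw [sigma_x hK h2]
    exact Sys.xG_mem_uSub S K (hP r hr h1 h2)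
      ((by decide +kernel : ∀ r < 48, 24 ≤ r → 24 ≤ rr r) r h2 h1) (rr_lt r h2) _
  exact (hle hu).2

theorem elt_co {k : ℕ} (hk : k < 12) (a : K) :
    elt m k a ∈ uSub chevF4 K {r | r ∈ upL k} ∧ co k (elt m k a) = a := by
  obtain ⟨f1, f2, f3⟩ := img_facts ⟨k, hk⟩
  simp only at f1 f2 f3
  have hk3 : kind k < 3 := kind_lt ⟨k, hk⟩
  have hlen : ((baseR (kind k)).map (wL chevF4 (rot k))).length = (baseV m (kind k) a).length := by
    rw [List.length_map]
    interval_cases h : kind k <;> rfl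
  have hc := coord_wG hk _ _ hlen f1 (le_of_eq f3)
  refine ⟨wG_pos_mem S K fun e he => ?_, co_eq hk ?_⟩
  · have h' := f1 e.1 (List.of_mem_zip he).1
    obtain ⟨g1, g2⟩ := (upL_facts ⟨k, by omega⟩).1 e.1 h'
    exact ⟨g1, g2, h'⟩
  · rw [f2] at hc
    have e : (baseV m (kind k) a).getD (if kind k = 1 then 0 else 1) 0 = a := by
      interval_cases h : kind k <;> rfl
    rwa [e] at hc

local notation "GG" => Cfsg.Lie.twistedF4 K (2 ^ m)

/-- The torus. -/
noncomputable def torus : Subgroup ↥GG := (TT hK).subgroupOf GG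

omit hK in
/-- The Sylow two-subgroup. -/
def syl (K : Type*) [Field K] (m : ℕ) : Subgroup ↥(Cfsg.Lie.twistedF4 K (2 ^ m)) :=
  (chevF4.posUnipotent K).subgroupOf (Cfsg.Lie.twistedF4 K (2 ^ m))

theorem co_ker {k : ℕ} (hk : k < 12) {x : GL chevF4.Idx K} (hx : x ∈ fixG hK)
    (hxu : x ∈ uSub chevF4 K {r | r ∈ upL k}) :
    co k x = 0 ↔ x ∈ uSub chevF4 K {r | r ∈ upL (k + 1)} := by
  obtain ⟨-, -, f1, f2, f3, f4, f5⟩ := upL_facts ⟨k, by omega⟩
  have hd : ({r | r ∈ upL k} \ {rep k} : Set ℕ) = {r | r ∈ upR k} := by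
    ext r; exact ⟨fun h => f2 r h.1 h.2, fun h => f1 r h⟩
  constructor
  · intro h0
    have h1 := co_spec hk hxu
    rw [h0, Sys.coord_zero_iff, hd] at h1
    have h2 := sigma_image hK (P := {r | r ∈ upR k}) (Q := {r | r ∈ upQ k})
      (fun r hr _ _ => f3 r hr) h1
    rw [hx.2] at h2
    have h3 : x ∈ uSub chevF4 K {r | r ∈ upR k} ⊓ uSub chevF4 K {r | r ∈ upQ k} := ⟨h1, h2⟩
    rw [Sys.uSub_inf S K (closed_of_chk (chk_upL ⟨k, by omega⟩).2.1)
      (closed_of_chk (chk_upL ⟨k, by omega⟩).2.2)] at h3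
    exact uSub_mono (P := {r | r ∈ upR k} ∩ {r | r ∈ upQ k}) (Q := {r | r ∈ upL (k + 1)})
      (fun r hr => f4 r hr.1 hr.2) h3
  · intro h
    refine co_eq hk ?_
    rw [Sys.coord_zero_iff, hd]
    exact uSub_mono (P := {r | r ∈ upL (k + 1)}) (Q := {r | r ∈ upR k}) (fun r hr => f5 r hr) h

theorem mem_torus {t : ↥GG} :
    t ∈ torus hK ↔ ∃ a b, (t : GL chevF4.Idx K) = tor chevF4 K (cv m a b) := mem_TT hK

/-- The central series. -/
noncomputable def series : Series (syl K m) (torus hK) K 12 where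
  N k := (uSub chevF4 K {r | r ∈ upL k}).subgroupOf GG
  top := by
    refine congrArg (Subgroup.subgroupOf · GG) (le_antisymm (uSub_le_posUnipotent K _) ?_)
    rw [← uSub_univ]
    exact Sys.uSub_le S K fun r _ h1 h2 t =>
      Sys.xG_mem_uSub S K (P := {r | r ∈ upL 0}) (upL_zero r h2 h1) h1 h2 t
  bot := by
    rw [show uSub chevF4 K {r | r ∈ upL 12} = ⊥ from uSub_empty_of fun r hr => by
      simp [upL_twelve le_rfl] at hr]
    exact Subgroup.bot_subgroupOf _
  le_top k _ := fun x hx => uSub_le_posUnipotent K _ hx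
  step k hk := fun x hx => by
    obtain ⟨-, -, f1, -, -, -, f5⟩ := upL_facts ⟨k, by omega⟩
    exact uSub_mono (P := {r | r ∈ upL (k + 1)}) (Q := {r | r ∈ upL k})
      (fun r hr => (f1 r (f5 r hr)).1) hx
  comm k hk := by
    haveI := charTwo hK
    rw [Subgroup.commutator_le]
    intro u hu y hy
    exact comm_mem hk hu hy
  elt k a := if hk : k < 12 then ⟨elt m k a, elt_mem_G hK hk a⟩ else 1
  elt_mem k hk a := by
    rw [dif_pos hk]
    exact (elt_co hK hk a).1
  coord k x := co k (x : GL chevF4.Idx K)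
  coord_mul k hk x hx y hy := co_eq hk (Sys.coord_mul S (closed_of_chk (chk_upL ⟨k, by omega⟩).1)
      (show rep k ∈ {r | r ∈ upL k} from (rep_facts ⟨k, hk⟩).1)
      ⟨(rep_facts ⟨k, hk⟩).2.2.1, (rep_facts ⟨k, hk⟩).2.2.2⟩ (co_spec hk hx) (co_spec hk hy))
  coord_elt k hk a := by
    rw [dif_pos hk]
    exact (elt_co hK hk a).2
  coord_iff k hk x hx := co_ker hK hk (sigma_gen hK x.2) hx
  chi k t := co k ((t : GL chevF4.Idx K) * elt m k 1 * (t : GL chevF4.Idx K)⁻¹)
  conj_mem t ht k _ x hx := by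
    obtain ⟨a, b, e⟩ := (mem_torus hK).mp ht
    show (t : GL chevF4.Idx K) * (x : GL chevF4.Idx K) * (t : GL chevF4.Idx K)⁻¹ ∈ uSub chevF4 K _
    rw [e]
    exact Sys.tor_conj_uSub S K _ hx
  coord_conj t ht k hk x hx := by
    obtain ⟨a, b, e⟩ := (mem_torus hK).mp ht
    show co k ((t : GL chevF4.Idx K) * (x : GL chevF4.Idx K) * (t : GL chevF4.Idx K)⁻¹) = _
    rw [e, co_tor hk _ (show (x : GL chevF4.Idx K) ∈ uSub chevF4 K _ from hx), co_tor hk _ (elt_co hK hk 1).1,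
      (elt_co hK hk 1).2, mul_one]

theorem series_elt {k : ℕ} (hk : k < 12) (a : K) :
    (((series hK).elt k a : ↥GG) : GL chevF4.Idx K) = elt m k a := by
  show ((dite (k < 12) (fun h => (⟨elt m k a, elt_mem_G hK h a⟩ : ↥GG)) fun _ => 1 : ↥GG) :
    GL chevF4.Idx K) = _
  rw [dif_pos hk]

theorem series_chi {k : ℕ} (hk : k < 12) {t : ↥GG} {a b : Kˣ}
    (e : (t : GL chevF4.Idx K) = tor chevF4 K (cv m a b)) :
    (series hK).chi k t = (torusVal chevF4 (cv m a b) (rep k) : K) := by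
  show co k ((t : GL chevF4.Idx K) * elt m k 1 * (t : GL chevF4.Idx K)⁻¹) = _
  rw [e, co_tor hk _ (elt_co hK hk 1).1, (elt_co hK hk 1).2, mul_one]

theorem torus_facts : (∀ x ∈ torus hK, ∀ y ∈ torus hK, x * y = y * x) ∧
    ¬ 2 ∣ Nat.card (torus hK) := by
  refine ⟨fun x hx y hy => ?_, ?_⟩
  · obtain ⟨a, b, e⟩ := (mem_torus hK).mp hx
    obtain ⟨a', b', e'⟩ := (mem_torus hK).mp hy
    refine Subtype.ext ?_
    rw [Subgroup.coe_mul, Subgroup.coe_mul, e, e', ← map_mul, ← map_mul, mul_comm]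
  · rw [torus, Nat.card_congr (Subgroup.subgroupOfEquivOfLe (show TT hK ≤ GG from TT_le_G hK)).toEquiv,
      card_TT hK,
      Nat.prime_two.prime.dvd_pow_iff_dvd two_ne_zero]
    intro h
    have h2 : 2 ∣ 2 ^ (2 * m + 1) := dvd_pow_self 2 (by omega)
    have h1 : 1 ≤ 2 ^ (2 * m + 1) := Nat.one_le_two_pow
    omega

end CfsgLib.SchurRee4
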