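import Cfsg.Agent.SchurRee4.Weights
import Cfsg.Agent.SchurClassical.NoMult

/-!
# The two-part of the multiplier of `²F₄(q)` vanishes

The only delicate pairing, between the two layers of one class of four roots, is killed by
writing the centre of the class as a commutator of elements whose lifts centralise the class.
-/

set_option autoImplicit false

namespace CfsgLib.SchurRee4

open Cfsg.Lie CfsgLib.Chevalley CfsgLib.TwistedLie CfsgLib.TwistedLie.F4
open Subgroup (center mem_center_iff)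
open Mod2 (eq2B eq2_sound ew ew_cons ew_nil)
open scoped commutatorElement

local notation "S" => sysF4

universe u

/-- The root words of two layers commute. -/
def orthLay (j k : ℕ) : Bool :=
  chkEvenComm chevF4 ((baseR (kind j)).map (wL chevF4 (rot j)))
    ((baseR (kind k)).map (wL chevF4 (rot k)))

theorem orth_table : ∀ p ∈ ([(10, 7), (10, 3), (5, 7), (5, 3), (10, 6), (5, 6), (10, 9), (5, 9),
    (10, 11), (5, 11)] : List (ℕ × ℕ)), orthLay p.1 p.2 = true ∧ sameQuad p.1 p.2 = false := by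
  decide +kernel

theorem ident_comm : eq2B chevF4
    [(34, [(1, 0, 0)]), (26, [(1, 0, 0)]), (36, [(1, 0, 0)]), (37, [(1, 1, 0)]), (32, [(1, 0, 1)])]
    [(37, [(1, 1, 0)]), (32, [(1, 0, 1)]), (34, [(1, 0, 0)]), (26, [(1, 0, 0)]), (36, [(1, 0, 0)]),
      (39, [(1, 1, 0)]), (45, [(1, 0, 1)]), (40, [(1, 0, 1)]), (46, [(1, 2, 0)]),
      (44, [(1, 1, 0)]), (47, [(1, 0, 1)])] = true := by
  decide +kernel

variable {K : Type*} [Field K]

theorem orth_lay_commute [CharP K 2] {m j k : ℕ} (h : orthLay j k = true) (a c : K) :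
    Commute (elt m j a) (elt m k c) := by
  refine Commute.list_prod_left _ _ fun x hx => Commute.list_prod_right _ _ fun y hy => ?_
  obtain ⟨p, hp, rfl⟩ := List.mem_map.1 hx
  obtain ⟨q, hq, rfl⟩ := List.mem_map.1 hy
  exact Sys.evenComm_commute S K h (List.of_mem_zip hp).1 (List.of_mem_zip hq).1 _ _

variable [Fintype K] {m : ℕ} (hK : Fintype.card K = 2 ^ (2 * m + 1))
include hK

local notation "GG" => Cfsg.Lie.twistedF4 K (2 ^ m)
local notation "θ" => 2 ^ m

/-- The element of a layer in the group. -/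
noncomputable def eG (k : ℕ) (a : K) : ↥GG := (series hK).elt k a

theorem eG_val {k : ℕ} (hk : k < 12) (a : K) : (eG hK k a : GL chevF4.Idx K) = elt m k a :=
  series_elt hK hk a

omit [Field K] [Fintype K] hK in
theorem kind_facts : kind 5 = 0 ∧ kind 3 = 0 ∧ kind 10 = 1 ∧ kind 7 = 1 ∧ kind 6 = 2 ∧ kind 9 = 2 ∧
    kind 11 = 1 ∧ rot 5 = rot 10 ∧ rot 3 = rot 7 := by decide +kernel

theorem eG_add {k : ℕ} (hk : k < 12) (h : kind k ≠ 0) (a b : K) :
    eG hK k (a + b) = eG hK k a * eG hK k b := by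
  refine Subtype.ext ?_
  rw [Subgroup.coe_mul, eG_val hK hk, eG_val hK hk, eG_val hK hk]
  exact elt_add hK hk a b h

theorem eG_add_mod {k l : ℕ} (hk : k < 12) (hl : l < 12) (h0 : kind k = 0) (h1 : kind l = 1)
    (hr : rot k = rot l) (a b : K) :
    eG hK k a * eG hK k b = eG hK k (a + b) * eG hK l (a ^ θ * b) := by
  refine Subtype.ext ?_
  rw [Subgroup.coe_mul, Subgroup.coe_mul, eG_val hK hk, eG_val hK hk, eG_val hK hk, eG_val hK hl]
  exact elt_add_mod hK hk hl h0 h1 hr a b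

/-- The commutator identity behind the delicate pairing. -/
theorem comm_ident (b : K) : eG hK 3 1 * eG hK 6 b =
    eG hK 6 b * eG hK 3 1 * (eG hK 9 b * eG hK 10 b * eG hK 11 (b ^ θ)) := by
  haveI := charTwo hK
  refine Subtype.ext ?_
  simp only [Subgroup.coe_mul, eG_val hK (show (3 : ℕ) < 12 by omega), eG_val hK (show (6 : ℕ) < 12 by omega),
    eG_val hK (show (9 : ℕ) < 12 by omega), eG_val hK (show (10 : ℕ) < 12 by omega),
    eG_val hK (show (11 : ℕ) < 12 by omega)]
  have h := eq2_sound S ident_comm (b ^ θ) b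
  have e1 : ∀ (k : ℕ) (R : List ℕ) (a : K), ((baseR (kind k)).map (wL chevF4 (rot k))) = R →
      elt m k a = Sys.wG S K (R.zip (baseV m (kind k) a)) := fun k R a e => by rw [elt, e]
  obtain ⟨-, k3, k10, -, k6, k9, k11, -, -⟩ := kind_facts
  rw [e1 3 [34, 26, 36] _ (by decide +kernel), e1 6 [37, 32] _ (by decide +kernel),
    e1 9 [39, 45] _ (by decide +kernel), e1 10 [40, 46] _ (by decide +kernel),
    e1 11 [44, 47] _ (by decide +kernel), k3, k10, k6, k9, k11]
  have hq : (b ^ θ) ^ (2 * θ) = b := theta_two hK b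
  have h2 : b ^ (2 * θ) = (b ^ θ) ^ 2 := by rw [← pow_mul, mul_comm]
  simp only [baseV, Sys.wG, List.zip_cons_cons, List.zip_nil_left, List.map_cons, List.map_nil,
    List.prod_cons, List.prod_nil, mul_one, one_pow, hq, h2]
  simp only [ew_cons, ew_nil, pev] at h
  simpa [mul_assoc] using h

variable {Γ : Type u} [Group Γ] {σ : Γ →* ↥(Cfsg.Lie.twistedF4 K (2 ^ m))}

theorem lifts_commute (hm : 1 ≤ m) (hs : Function.Surjective σ) (hc : σ.ker ≤ center Γ) {j k : ℕ}
    (hj : j < 12) (hk : k < 12) (ho : orthLay j k = true) (hsq : sameQuad j k = false)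
    (rf rh : K → K → ↥GG)
    (hf : ∀ a b, eG hK j a * eG hK j b = eG hK j (a + b) * rf a b)
    (hh : ∀ a b, eG hK k a * eG hK k b = eG hK k (a + b) * rh a b)
    (hrf : ∀ a b c x y, σ x = rf a b → σ y = eG hK k c → Commute x y)
    (hrh : ∀ a c d x y, σ x = eG hK j a → σ y = rh c d → Commute x y) :
    ∀ a c x y, σ x = eG hK j a → σ y = eG hK k c → Commute x y := by
  classical
  have hz : ∀ z ∈ σ.ker, ∀ g, g * z = z * g := fun z hz g => mem_center_iff.1 (hc hz) g
  obtain ⟨s, hs'⟩ := hs.hasRightInverse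
  haveI := charTwo hK
  have hcomm : ∀ a c, eG hK j a * eG hK k c = eG hK k c * eG hK j a := fun a c => Subtype.ext (by
    rw [Subgroup.coe_mul, Subgroup.coe_mul, eG_val hK hj, eG_val hK hk]
    exact orth_lay_commute ho a c)
  have hmem : ∀ a c, ⁅s (eG hK j a), s (eG hK k c)⁆ ∈ σ.ker := fun a c => by
    rw [MonoidHom.mem_ker, map_commutatorElement, hs', hs']
    exact commutatorElement_eq_one_iff_mul_comm.2 (hcomm a c)
  letI : CommGroup σ.ker := { (inferInstance : Group σ.ker) with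
    mul_comm := fun a b => Subtype.ext (hz _ b.2 a) }
  have addL : ∀ a a' c, (⟨_, hmem (a + a') c⟩ : σ.ker) = ⟨_, hmem a c⟩ * ⟨_, hmem a' c⟩ := by
    intro a a' c
    refine Subtype.ext ?_
    show ⁅s (eG hK j (a + a')), s (eG hK k c)⁆ =
      ⁅s (eG hK j a), s (eG hK k c)⁆ * ⁅s (eG hK j a'), s (eG hK k c)⁆
    have h1 : ⁅s (eG hK j a) * s (eG hK j a'), s (eG hK k c)⁆ =
        ⁅s (eG hK j (a + a')) * s (rf a a'), s (eG hK k c)⁆ :=
      Schur.commutator_congr hc (by rw [map_mul, map_mul, hs', hs', hs', hs', hf]) rfl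
    have h0 : ⁅s (rf a a'), s (eG hK k c)⁆ = 1 :=
      commutatorElement_eq_one_iff_mul_comm.2 (hrf a a' c _ _ (hs' _) (hs' _))
    rw [Schur.commutator_mul_left' (hz _ (hmem a' c) _),
      Schur.commutator_mul_left' (by rw [h0, mul_one, one_mul]), h0, one_mul] at h1
    rw [← h1, hz _ (hmem a c) _]
  have addR : ∀ a c c', (⟨_, hmem a (c + c')⟩ : σ.ker) = ⟨_, hmem a c⟩ * ⟨_, hmem a c'⟩ := by
    intro a c c'
    refine Subtype.ext ?_
    show ⁅s (eG hK j a), s (eG hK k (c + c'))⁆ =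
      ⁅s (eG hK j a), s (eG hK k c)⁆ * ⁅s (eG hK j a), s (eG hK k c')⁆
    have h1 : ⁅s (eG hK j a), s (eG hK k c) * s (eG hK k c')⁆ =
        ⁅s (eG hK j a), s (eG hK k (c + c')) * s (rh c c')⁆ :=
      Schur.commutator_congr hc rfl (by rw [map_mul, map_mul, hs', hs', hs', hs', hh])
    have h0 : ⁅s (eG hK j a), s (rh c c')⁆ = 1 :=
      commutatorElement_eq_one_iff_mul_comm.2 (hrh a c c' _ _ (hs' _) (hs' _))
    rw [Schur.commutator_mul_right' (hz _ (hmem a c') _),
      Schur.commutator_mul_right' (by rw [h0, mul_one, one_mul]), h0, mul_one] at h1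
    exact h1.symm
  let B : K →+ K →+ Additive σ.ker := AddMonoidHom.mk'
    (fun a => AddMonoidHom.mk' (fun c => Additive.ofMul ⟨_, hmem a c⟩) fun c c' => by
      rw [addR, ofMul_mul])
    fun a a' => by
      refine AddMonoidHom.ext fun c => ?_
      simp only [AddMonoidHom.mk'_apply, AddMonoidHom.add_apply]
      rw [addL, ofMul_mul]
  have hB : B = 0 := by
    refine invZero_layers.{u} hK hm hj hk hsq B fun t ht a c => ?_
    obtain ⟨cj, hcj⟩ := elt_tor hK hj (d := (t : GL chevF4.Idx K)) ht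
    obtain ⟨ck, hck⟩ := elt_tor hK hk (d := (t : GL chevF4.Idx K)) ht
    have ej : (series hK).chi j t = cj := by
      show co j ((t : GL chevF4.Idx K) * elt m j 1 * (t : GL chevF4.Idx K)⁻¹) = cj
      rw [hcj, (elt_co hK hj _).2, mul_one]
    have ek : (series hK).chi k t = ck := by
      show co k ((t : GL chevF4.Idx K) * elt m k 1 * (t : GL chevF4.Idx K)⁻¹) = ck
      rw [hck, (elt_co hK hk _).2, mul_one]
    have e : ∀ {i : ℕ} (hi : i < 12) (c z : K),
        (t : GL chevF4.Idx K) * elt m i z * (t : GL chevF4.Idx K)⁻¹ = elt m i c →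
          σ (s t * s (eG hK i z) * (s t)⁻¹) = σ (s (eG hK i c)) := fun {i} hi c z h => by
      rw [map_mul, map_mul, map_inv, hs', hs', hs']
      refine Subtype.ext ?_
      rw [Subgroup.coe_mul, Subgroup.coe_mul, Subgroup.coe_inv, eG_val hK hi, eG_val hK hi, h]
    rw [ej, ek]
    refine congrArg Additive.ofMul (Subtype.ext ?_)
    show ⁅s (eG hK j (cj * a)), s (eG hK k (ck * c))⁆ = ⁅s (eG hK j a), s (eG hK k c)⁆
    rw [← Schur.commutator_congr hc (e hj _ _ (hcj a)) (e hk _ _ (hck c)),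
      show ⁅s t * s (eG hK j a) * (s t)⁻¹, s t * s (eG hK k c) * (s t)⁻¹⁆ =
        s t * ⁅s (eG hK j a), s (eG hK k c)⁆ * (s t)⁻¹ by simp only [commutatorElement_def]; group,
      hz _ (hmem a c), mul_inv_cancel_right]
  intro a c x y hx hy
  refine commutatorElement_eq_one_iff_mul_comm.1 ?_
  rw [Schur.commutator_congr hc (hx.trans (hs' _).symm) (hy.trans (hs' _).symm)]
  have := DFunLike.congr_fun (DFunLike.congr_fun hB a) c
  exact congrArg (fun z : Additive σ.ker => ((Additive.toMul z : σ.ker) : Γ)) this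

/-- The delicate pairing vanishes in the second class. -/
theorem quad_commute (hm : 1 ≤ m) (hs : Function.Surjective σ) (hc : σ.ker ≤ center Γ) (a b : K)
    {x y : Γ} (hx : σ x = eG hK 5 a) (hy : σ y = eG hK 10 b) : Commute x y := by
  obtain ⟨k5, k3, k10, k7, k6, k9, k11, r5, r3⟩ := kind_facts
  have ot := fun j k h => orth_table (j, k) h
  have one_ok : ∀ {P : ↥GG} {x y : Γ}, σ x = 1 → σ y = P → Commute x y := fun {P x y} hx _ =>
    (mem_center_iff.1 (hc hx) y).symm
  have exact' : ∀ {i : ℕ}, i < 12 → kind i ≠ 0 → ∀ a b, eG hK i a * eG hK i b = eG hK i (a + b) * 1 :=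
    fun hi h a b => by rw [eG_add hK hi h, mul_one]
  have hmod5 := fun a b => eG_add_mod hK (k := 5) (l := 10) (by omega) (by omega) k5 k10 r5 a b
  have hmod3 := fun a b => eG_add_mod hK (k := 3) (l := 7) (by omega) (by omega) k3 k7 r3 a b
  have c10 : ∀ {i : ℕ} (hi : i < 12), kind i ≠ 0 → orthLay 10 i = true ∧ sameQuad 10 i = false →
      ∀ a c x y, σ x = eG hK 10 a → σ y = eG hK i c → Commute x y := fun {i} hi hne h =>
    lifts_commute hK hm hs hc (by omega) hi h.1 h.2 (fun _ _ => 1) (fun _ _ => 1)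
      (exact' (by omega) (by rw [k10]; omega)) (exact' hi hne)
      (fun _ _ _ x y hx hy => one_ok hx hy) (fun _ _ _ x y hx hy => (one_ok hy hx).symm)
  have c5 : ∀ {i : ℕ} (hi : i < 12), kind i ≠ 0 → orthLay 10 i = true ∧ sameQuad 10 i = false →
      orthLay 5 i = true ∧ sameQuad 5 i = false →
      ∀ a c x y, σ x = eG hK 5 a → σ y = eG hK i c → Commute x y := fun {i} hi hne h h' =>
    lifts_commute hK hm hs hc (by omega) hi h'.1 h'.2 (fun a b => eG hK 10 (a ^ θ * b))
      (fun _ _ => 1) hmod5 (exact' hi hne)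
      (fun _ _ c x y hx hy => c10 hi hne h _ c x y hx hy) (fun _ _ _ x y hx hy => (one_ok hy hx).symm)
  have c57 := c5 (i := 7) (by omega) (by rw [k7]; omega) (ot 10 7 (by decide)) (ot 5 7 (by decide))
  have c56 := c5 (i := 6) (by omega) (by rw [k6]; omega) (ot 10 6 (by decide)) (ot 5 6 (by decide))
  have c59 := c5 (i := 9) (by omega) (by rw [k9]; omega) (ot 10 9 (by decide)) (ot 5 9 (by decide))
  have c511 := c5 (i := 11) (by omega) (by rw [k11]; omega) (ot 10 11 (by decide)) (ot 5 11 (by decide))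
  have c107 := c10 (i := 7) (by omega) (by rw [k7]; omega) (ot 10 7 (by decide))
  have c103 : ∀ a c x y, σ x = eG hK 10 a → σ y = eG hK 3 c → Commute x y :=
    lifts_commute hK hm hs hc (by omega) (by omega) (ot 10 3 (by decide)).1 (ot 10 3 (by decide)).2
      (fun _ _ => 1) (fun a b => eG hK 7 (a ^ θ * b))
      (exact' (by omega) (by rw [k10]; omega)) hmod3
      (fun _ _ _ x y hx hy => one_ok hx hy) (fun a _ _ x y hx hy => c107 a _ x y hx hy)
  have c53 : ∀ a c x y, σ x = eG hK 5 a → σ y = eG hK 3 c → Commute x y :=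
    lifts_commute hK hm hs hc (by omega) (by omega) (ot 5 3 (by decide)).1 (ot 5 3 (by decide)).2
      (fun a b => eG hK 10 (a ^ θ * b)) (fun a b => eG hK 7 (a ^ θ * b)) hmod5 hmod3
      (fun _ _ c x y hx hy => c103 _ c x y hx hy) (fun a _ _ x y hx hy => c57 a _ x y hx hy)
  obtain ⟨p, hp⟩ := hs (eG hK 3 1)
  obtain ⟨q, hq⟩ := hs (eG hK 6 b)
  obtain ⟨v, hv⟩ := hs (eG hK 9 b)
  obtain ⟨w, hw⟩ := hs (eG hK 11 (b ^ θ))
  have hy' : σ y = σ (v⁻¹ * (p⁻¹ * (q⁻¹ * (p * q))) * w⁻¹) := by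
    simp only [map_mul, map_inv, hp, hq, hv, hw, hy, comm_ident hK b]
    group
  have cp := c53 a 1 x p hx hp
  have cq := c56 a b x q hx hq
  have cv' := c59 a b x v hx hv
  have cw := c511 a _ x w hx hw
  have h1 : Commute x (v⁻¹ * (p⁻¹ * (q⁻¹ * (p * q))) * w⁻¹) :=
    ((cv'.inv_right.mul_right (cp.inv_right.mul_right (cq.inv_right.mul_right (cp.mul_right cq))))).mul_right
      cw.inv_right
  refine commutatorElement_eq_one_iff_mul_comm.1 ?_
  rw [Schur.commutator_congr hc rfl hy']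
  exact commutatorElement_eq_one_iff_mul_comm.2 h1.eq

theorem quad_pairs (hm : 1 ≤ m) (hs : Function.Surjective σ) (hc : σ.ker ≤ center Γ) {j k : ℕ}
    (h : j = 0 ∧ k = 1 ∨ j = 5 ∧ k = 10 ∨ j = 4 ∧ k = 11 ∨ j = 3 ∧ k = 7) (a c : K) {x y : Γ}
    (hx : σ x = eG hK j a) (hy : σ y = eG hK k c) : Commute x y := by
  have hj : j < 12 := by omega
  have hk : k < 12 := by omega
  have facts : kind j = 0 ∧ kind k = 1 ∧ rot j = rot k := by
    rcases h with ⟨rfl, rfl⟩ | ⟨rfl, rfl⟩ | ⟨rfl, rfl⟩ | ⟨rfl, rfl⟩ <;> decide +kernel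
  obtain ⟨f1, f2, f3⟩ := facts
  obtain ⟨k5, -, k10, -, -, -, -, r5, -⟩ := kind_facts
  let M : ↥GG := ⟨nL S K (rot 5), rot_mem hK (show (5 : ℕ) < 12 by omega)⟩ *
    ⟨nL S K (rot j), rot_mem hK hj⟩⁻¹
  have e5 : M * eG hK j a * M⁻¹ = eG hK 5 a := by
    refine Subtype.ext ?_
    simp only [M, Subgroup.coe_mul, Subgroup.coe_inv, eG_val hK hj,
      eG_val hK (show (5 : ℕ) < 12 by omega), elt_eq hK hj, elt_eq hK (show (5 : ℕ) < 12 by omega),
      f1, k5]
    group
  have e10 : M * eG hK k c * M⁻¹ = eG hK 10 c := by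
    refine Subtype.ext ?_
    simp only [M, Subgroup.coe_mul, Subgroup.coe_inv, eG_val hK hk,
      eG_val hK (show (10 : ℕ) < 12 by omega), elt_eq hK hk, elt_eq hK (show (10 : ℕ) < 12 by omega),
      f2, k10, f3, r5]
    group
  obtain ⟨g, hg⟩ := hs M
  exact SemiconjBy.conj_iff.1 (quad_commute hK hm hs hc a c
    (x := g * x * g⁻¹) (y := g * y * g⁻¹) (by rw [map_mul, map_mul, map_inv, hg, hx, e5])
    (by rw [map_mul, map_mul, map_inv, hg, hy, e10]))

omit [Group Γ] in
theorem syl_index : ¬ 2 ∣ (syl K m).index := by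
  have h1 : Nat.card ↥(syl K m) = (2 ^ (2 * m + 1)) ^ 12 := by
    rw [← card_U hK]
    exact Nat.card_congr
      { toFun := fun x => ⟨x.1.1, x.2, x.1.2⟩
        invFun := fun x => ⟨⟨x.1, x.2.2⟩, x.2.1⟩
        left_inv := fun x => rfl
        right_inv := fun x => rfl }
  have h2 := (syl K m).card_mul_index
  rw [h1, show Nat.card ↥GG = _ from card_group hK] at h2
  intro hdvd
  simp only [mul_assoc] at h2
  have h3 := Nat.eq_of_mul_eq_mul_left (by positivity) h2
  rw [h3] at hdvd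
  obtain ⟨t, ht⟩ : 2 ∣ 2 ^ (2 * m + 1) := dvd_pow_self 2 (by omega)
  have hp := Nat.two_pow_pos (2 * m + 1)
  have e : ∀ i, 1 ≤ i → ¬ 2 ∣ (2 ^ (2 * m + 1)) ^ i + 1 ∧ ¬ 2 ∣ (2 ^ (2 * m + 1)) ^ i - 1 := by
    intro i hi
    have : 2 ∣ (2 ^ (2 * m + 1)) ^ i := dvd_pow (dvd_pow_self 2 (by omega)) (by omega)
    have := Nat.one_le_pow i _ hp
    omega
  rcases Nat.prime_two.dvd_mul.1 hdvd with h | h
  · omega
  rcases Nat.prime_two.dvd_mul.1 h with h | h
  · exact (e 3 (by omega)).1 h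
  rcases Nat.prime_two.dvd_mul.1 h with h | h
  · exact (e 4 (by omega)).2 h
  · exact (e 6 (by omega)).1 h

omit [Group Γ] in
/-- The multiplier has no two-part. -/
theorem noMult_two (hm : 1 ≤ m) : SchurClassical.NoMult 2 ↥GG := by
  intro Γ _ _ σ hs hc hA
  refine SchurClassical.ker_inf_commutator_of_index Nat.prime_two hs hc hA (syl K m)
    (syl_index hK) ?_
  refine ker_inf_commutator hs hc hA (series hK) (torus_facts hK).1 (torus_facts hK).2
    (fun k hk => chi_ne_one hK hm hk) fun j hj k hk => ?_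
  cases hq : sameQuad j k with
  | false => exact Or.inl (invZero_layers hK hm hj hk hq)
  | true =>
    refine Or.inr fun a c g h hg hh => commutatorElement_eq_one_iff_mul_comm.2 ?_
    rcases quads_table ⟨j, hj⟩ ⟨k, hk⟩ hq with h1 | h1
    · exact (quad_pairs hK hm hs hc h1 a c hg hh).eq
    · exact (quad_pairs hK hm hs hc h1 c a hh hg).symm.eq

end CfsgLib.SchurRee4
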