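import Cfsg.Agent.SchurRee4.Series

/-!
# The weights of the layers are independent
-/

set_option autoImplicit false

namespace CfsgLib.SchurRee4

open Cfsg.Lie CfsgLib.Chevalley CfsgLib.TwistedLie CfsgLib.TwistedLie.F4

local notation "S" => sysF4

/-- The pairing of a layer root with a fundamental root. -/
def crt (i k : ℕ) : ℤ := chevF4.cartan i (rep k)

/-- The determinant of two weights over `ℤ[s]`: constant, linear and quadratic coefficient. -/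
def dX (j k : ℕ) : ℤ := crt 0 k * crt 1 j - crt 1 k * crt 0 j

/-- The linear coefficient. -/
def dY (j k : ℕ) : ℤ :=
  crt 0 k * crt 2 j + crt 3 k * crt 1 j - crt 1 k * crt 3 j - crt 2 k * crt 0 j

/-- The quadratic coefficient. -/
def dZ (j k : ℕ) : ℤ := crt 3 k * crt 2 j - crt 2 k * crt 3 j

/-- The norm of the determinant. -/
def dN (j k : ℕ) : ℤ := (dX j k + 2 * dZ j k) ^ 2 - 2 * dY j k ^ 2

/-- The two layers of one class of four roots. -/
def sameQuad (j k : ℕ) : Bool :=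
  (shapes.getD j (0, 0)).2 == (shapes.getD k (0, 0)).2 &&
    ((kind j == 0 && kind k == 1) || (kind j == 1 && kind k == 0))

theorem pairs_table : ∀ j k : Fin 12, (j : ℕ) = k ∨ sameQuad j k = true ∨
    ∃ e : Fin 16, (dN j k).natAbs = 2 ^ (e : ℕ) := by decide +kernel

theorem table_ex : ∀ j : Fin 12, ∃ k : Fin 12, ∃ e : Fin 16,
    (dN k j).natAbs = 2 ^ (e : ℕ) := by decide +kernel

theorem quads_table : ∀ j k : Fin 12, sameQuad j k = true →
    ((j : ℕ) = 0 ∧ (k : ℕ) = 1 ∨ (j : ℕ) = 5 ∧ (k : ℕ) = 10 ∨ (j : ℕ) = 4 ∧ (k : ℕ) = 11 ∨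
      (j : ℕ) = 3 ∧ (k : ℕ) = 7) ∨
    ((k : ℕ) = 0 ∧ (j : ℕ) = 1 ∨ (k : ℕ) = 5 ∧ (j : ℕ) = 10 ∨ (k : ℕ) = 4 ∧ (j : ℕ) = 11 ∨
      (k : ℕ) = 3 ∧ (j : ℕ) = 7) := by decide +kernel

variable {K : Type*} [Field K] [Fintype K] {m : ℕ} (hK : Fintype.card K = 2 ^ (2 * m + 1))
include hK

theorem units_odd {x : Kˣ} {e : ℕ} (h : x ^ 2 ^ e = 1) : x = 1 := by
  haveI := charTwo hK
  refine Units.ext ?_
  have h1 : (x : K) ^ 2 ^ e = 1 ^ 2 ^ e := by
    rw [one_pow, ← Units.val_pow_eq_pow_val, h, Units.val_one]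
  exact iterateFrobenius_inj K 2 e h1

theorem det_one {j k : ℕ} {e : ℕ} (hN : (dN j k).natAbs = 2 ^ e) {x : Kˣ}
    (h : x ^ (dX j k + dY j k * (2 * 2 ^ m : ℕ) + dZ j k * ((2 * 2 ^ m : ℕ) : ℤ) ^ 2) = 1) : x = 1 := by
  set s : ℤ := ((2 * 2 ^ m : ℕ) : ℤ) with hs
  have hs2 : x ^ (s ^ 2 - 2) = 1 := by
    have h1 : x ^ (2 * 2 ^ m * 2 ^ m) = x := Units.ext (by simpa using sq_pow hK (x : K))
    have h2 : x ^ (s ^ 2) = x ^ (2 : ℤ) := by
      rw [hs, ← Nat.cast_pow, zpow_natCast,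
        show (2 * 2 ^ m) ^ 2 = 2 * 2 ^ m * 2 ^ m * 2 by ring, pow_mul, h1, zpow_ofNat]
    rw [zpow_sub, h2, mul_inv_cancel]
  have key : x ^ (dN j k) = 1 := by
    have e1 : dN j k = (dX j k + dY j k * s + dZ j k * s ^ 2) * (dX j k + 2 * dZ j k - dY j k * s) -
        (s ^ 2 - 2) * (dZ j k * (dX j k + 2 * dZ j k - dY j k * s) - dY j k ^ 2) := by
      rw [dN]; ring
    rw [e1, zpow_sub, zpow_mul, zpow_mul, h, hs2, one_zpow, one_zpow, inv_one, mul_one]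
  refine units_odd hK (e := e) ?_
  rw [← hN, pow_natAbs_eq_one]
  exact key

local notation "GG" => Cfsg.Lie.twistedF4 K (2 ^ m)
local notation "sr" => series hK

/-- The torus element with given parameters. -/
noncomputable def telt (a b : Kˣ) : ↥GG := ⟨tor chevF4 K (cv m a b), cv_mem hK a b⟩

theorem telt_mem (a b : Kˣ) : telt hK a b ∈ torus hK := (mem_torus hK).2 ⟨a, b, rfl⟩

theorem chi_telt {k : ℕ} (hk : k < 12) (a b : Kˣ) : (sr).chi k (telt hK a b) =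
    ((a ^ (crt 0 k + crt 3 k * (2 * 2 ^ m : ℕ)) * b ^ (crt 1 k + crt 2 k * (2 * 2 ^ m : ℕ)) : Kˣ) :
      K) := by
  rw [series_chi hK hk rfl]
  refine congrArg Units.val ?_
  rw [torusVal_four]
  show a ^ crt 0 k * b ^ crt 1 k * (b ^ (2 * 2 ^ m)) ^ crt 2 k * (a ^ (2 * 2 ^ m)) ^ crt 3 k = _
  rw [← zpow_natCast b, ← zpow_natCast a, ← zpow_mul, ← zpow_mul, zpow_add, zpow_add,
    mul_comm ((2 * 2 ^ m : ℕ) : ℤ) (crt 2 k), mul_comm ((2 * 2 ^ m : ℕ) : ℤ) (crt 3 k)]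
  apply Additive.ofMul.injective
  simp only [ofMul_mul]
  abel

/-- An element killed by one weight on which another takes a given value. -/
theorem exists_split {j k : ℕ} (hj : j < 12) (hk : k < 12) {e : ℕ} (hN : (dN j k).natAbs = 2 ^ e)
    (u : K) (hu : u ≠ 0) : ∃ t ∈ torus hK, (sr).chi j t = 1 ∧ (sr).chi k t = u := by
  set s : ℤ := ((2 * 2 ^ m : ℕ) : ℤ)
  let D : ℤ := dX j k + dY j k * s + dZ j k * s ^ 2
  have hinj : Function.Injective (zpowGroupHom D : Kˣ →* Kˣ) := by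
    rw [← MonoidHom.ker_eq_bot_iff, eq_bot_iff]
    exact fun x hx => Subgroup.mem_bot.2 (det_one hK hN hx)
  obtain ⟨g, hg⟩ := (Finite.injective_iff_surjective.1 hinj) (Units.mk0 u hu)
  refine ⟨telt hK (g ^ (crt 1 j + crt 2 j * s)) (g ^ (-(crt 0 j + crt 3 j * s))), telt_mem hK _ _,
    ?_, ?_⟩
  · rw [chi_telt hK hj, ← zpow_mul, ← zpow_mul, ← zpow_add]
    rw [show (crt 1 j + crt 2 j * s) * (crt 0 j + crt 3 j * s) +
      -(crt 0 j + crt 3 j * s) * (crt 1 j + crt 2 j * s) = 0 by ring, zpow_zero, Units.val_one]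
  · rw [chi_telt hK hk, ← zpow_mul, ← zpow_mul, ← zpow_add]
    rw [show (crt 1 j + crt 2 j * s) * (crt 0 k + crt 3 k * s) +
      -(crt 0 j + crt 3 j * s) * (crt 1 k + crt 2 k * s) = D by
        simp only [D, dX, dY, dZ]; ring]
    rw [show g ^ D = Units.mk0 u hu from hg, Units.val_mk0]

theorem exists_ne_one_unit (hm : 1 ≤ m) : ∃ u : K, u ≠ 0 ∧ u ≠ 1 := by
  obtain ⟨b, hb⟩ := F4.exists_ne_one hK hm
  exact ⟨b, b.ne_zero, fun e => hb (Units.ext e)⟩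

theorem chi_ne_one (hm : 1 ≤ m) {k : ℕ} (hk : k < 12) : ∃ t ∈ torus hK, (sr).chi k t ≠ 1 := by
  obtain ⟨j, e, he⟩ := table_ex ⟨k, hk⟩
  obtain ⟨u, hu, hu1⟩ := exists_ne_one_unit hK hm
  obtain ⟨t, ht, -, h2⟩ := exists_split hK j.isLt hk he u hu
  exact ⟨t, ht, h2 ▸ hu1⟩

universe w

theorem invZero_layers (hm : 1 ≤ m) {j k : ℕ} (hj : j < 12) (hk : k < 12)
    (h : sameQuad j k = false) : Series.InvZero.{w} (sr) j k := by
  rcases pairs_table ⟨j, hj⟩ ⟨k, hk⟩ with h1 | h1 | ⟨e, h1⟩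
  · simp only at h1
    subst h1
    refine invZero_self ?_ (sr) fun u hu => ?_
    · rw [hK]
      exact lt_of_lt_of_le (by norm_num) (Nat.pow_le_pow_right two_pos (show 3 ≤ 2 * m + 1 by omega))
    · obtain ⟨i, e, he⟩ := table_ex ⟨j, hj⟩
      obtain ⟨t, ht, -, h2⟩ := exists_split hK i.isLt hj he u hu
      exact ⟨t, ht, h2⟩
  · simp only at h1
    rw [h] at h1
    cases h1
  · obtain ⟨u, hu, hu1⟩ := exists_ne_one_unit hK hm
    obtain ⟨t, ht, h2, h3⟩ := exists_split hK hj hk h1 u hu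
    exact invZero_of_indep (sr) ht h2 (h3 ▸ hu1)

end CfsgLib.SchurRee4
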